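import Mathlib
import Cfsg.Agent.Lib.Helper8.BN2
import Cfsg.Agent.Lib.Helper8.Cox2

/-!
# Feit–Higman (S1142): foundation

Definitions shared by all pieces of the proof that a finite group with a (B,N)-pair of rank 2 has
a Weyl group of order 4, 6, 8, 12 or 16 (Kilmoyer–Solomon argument).
-/

set_option autoImplicit false

namespace Cfsg.Agent.Lib.Helper15.FH

open Cfsg Cfsg.Agent.Lib.Helper8

universe u

/-! ## alternating products -/

section Alt

variable {M : Type*} [Monoid M]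

/-- the alternating product `x * y * x * ...` with `k` factors -/
def altP (x y : M) (k : ℕ) : M := (altL x y k).prod

theorem altP_def (x y : M) (k : ℕ) : altP x y k = (altL x y k).prod := by rw [altP]

@[simp] theorem altP_zero (x y : M) : altP x y 0 = 1 := by
  rw [altP_def, altL_zero, List.prod_nil]

theorem altP_succ (x y : M) (k : ℕ) : altP x y (k + 1) = x * altP y x k := by
  rw [altP_def, altP_def, altL_succ, List.prod_cons]

@[simp] theorem altP_one (x y : M) : altP x y 1 = x := by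
  rw [altP_succ, altP_zero, mul_one]

theorem altP_two_mul (x y : M) (k : ℕ) : altP x y (2 * k) = (x * y) ^ k := by
  have h := prod_altL_two_mul (fun z : M => z) x y k
  rw [List.map_id'] at h
  rw [altP_def, h]

theorem altP_two_mul_add_one (x y : M) (k : ℕ) : altP x y (2 * k + 1) = (x * y) ^ k * x := by
  have h := altL_two_mul_add x y k 1
  rw [altP_def, h, List.prod_append, ← altP_def, ← altP_def, altP_two_mul, altP_one]

/-- appending a factor on the right: even length -/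
theorem altP_succ_right_even (x y : M) (k : ℕ) : altP x y (2 * k + 1) = altP x y (2 * k) * x := by
  rw [altP_two_mul_add_one, altP_two_mul]

/-- appending a factor on the right: odd length -/
theorem altP_succ_right_odd (x y : M) (k : ℕ) :
    altP x y (2 * k + 1 + 1) = altP x y (2 * k + 1) * y := by
  have e : 2 * k + 1 + 1 = 2 * (k + 1) := by ring
  rw [e, altP_two_mul, altP_two_mul_add_one, pow_succ, mul_assoc]

end Alt

/-! ## abstract Hecke operators -/

/-- Abstract datum of "Hecke operators" `T w` (`w ∈ W`) on the real functions on a finite set `Ω`,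
relative to a generating set `S` of involutions of the group `W` (lengths are taken with `len S`):
`q s` is the parameter of the generator `s`, `ind w` the index of `w`. -/
structure HeckeData (W : Type*) [Group W] (S : Set W) (Ω : Type*) [Fintype Ω] [DecidableEq Ω] where
  /-- parameters (only the values on `S` matter) -/
  q : W → ℝ
  /-- indices -/
  ind : W → ℝ
  /-- the operators -/
  T : W → Matrix Ω Ω ℝ
  ind_one : ind 1 = 1
  ind_pos : ∀ w, 0 < ind w
  ind_mul : ∀ s ∈ S, ∀ w, len S w < len S (s * w) → ind (s * w) = q s * ind w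
  T_one : T 1 = 1
  T_mul : ∀ s ∈ S, ∀ w, len S w < len S (s * w) → T s * T w = T (s * w)
  T_sq : ∀ s ∈ S, T s * T s = q s • (1 : Matrix Ω Ω ℝ) + (q s - 1) • T s
  T_trace : ∀ w, w ≠ 1 → (T w).trace = 0

/-! ## the operators of a (B,N)-pair -/

section BN

variable {G : Type u} [Group G]

/-- the set of chambers `G/B` -/
def Ch (P : BNPair G) : Type u := G ⧸ P.B

/-- the chamber `gB` -/
def Ch.mk (P : BNPair G) (g : G) : Ch P := (QuotientGroup.mk g : G ⧸ P.B)

theorem Ch.mk_eq_mk (P : BNPair G) {g h : G} : Ch.mk P g = Ch.mk P h ↔ g⁻¹ * h ∈ P.B :=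
  QuotientGroup.eq

theorem Ch.mk_surjective (P : BNPair G) : Function.Surjective (Ch.mk P) :=
  QuotientGroup.mk_surjective

/-- a representative of a chamber -/
noncomputable def Ch.rep (P : BNPair G) (X : Ch P) : G := Quotient.out (X : G ⧸ P.B)

theorem Ch.mk_rep (P : BNPair G) (X : Ch P) : Ch.mk P (Ch.rep P X) = X :=
  QuotientGroup.out_eq' (X : G ⧸ P.B)

theorem Ch.rep_mk (P : BNPair G) (g : G) : ∃ b ∈ P.B, Ch.rep P (Ch.mk P g) = g * b := by
  have h := (Ch.mk_eq_mk P (g := g) (h := Ch.rep P (Ch.mk P g))).1 (Ch.mk_rep P (Ch.mk P g)).symm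
  exact ⟨g⁻¹ * Ch.rep P (Ch.mk P g), h, by group⟩

noncomputable instance Ch.instFintypeCh [Finite G] (P : BNPair G) : Fintype (Ch P) :=
  Fintype.ofFinite (G ⧸ P.B)

noncomputable instance Ch.instDecidableEqCh (P : BNPair G) : DecidableEq (Ch P) :=
  Classical.decEq _

instance Ch.instNonemptyCh (P : BNPair G) : Nonempty (Ch P) := ⟨Ch.mk P 1⟩

/-- left translation by `g` on chambers -/
def Ch.tr (P : BNPair G) (g : G) : Ch P ≃ Ch P := MulAction.toPerm (α := G) (β := G ⧸ P.B) g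

theorem Ch.tr_mk (P : BNPair G) (g x : G) : Ch.tr P g (Ch.mk P x) = Ch.mk P (g * x) := rfl

/-- the double coset `B w B` of an element `w` of the Weyl group -/
noncomputable def dcW (P : BNPair G) (w : W P) : Set G := dc P ((Quotient.out w : P.N) : G)

theorem dcW_cl (P : BNPair G) (n : P.N) : dcW P (cl P n) = dc P (n : G) := by
  rw [dcW]
  exact dc_eq_of_cl_eq (QuotientGroup.out_eq' _)

theorem dcW_mul_mem (P : BNPair G) (w : W P) {b b' g : G} (hb : b ∈ P.B) (hb' : b' ∈ P.B) :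
    b * g * b' ∈ dcW P w ↔ g ∈ dcW P w := by
  rw [dcW]
  constructor
  · intro h
    have h1 := dc_mul_right_mem (P.B.inv_mem hb') (dc_mul_left_mem (P.B.inv_mem hb) h)
    have e : b⁻¹ * (b * g * b') * b'⁻¹ = g := by group
    rwa [e] at h1
  · intro h
    exact dc_mul_right_mem hb' (dc_mul_left_mem hb h)

open Classical in
/-- the Hecke operator of `w`: the `0/1` matrix of the relation `x⁻¹ y ∈ B w B` on chambers -/
noncomputable def Tmat (P : BNPair G) (w : W P) : Matrix (Ch P) (Ch P) ℝ :=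
  fun X Y => if (Ch.rep P X)⁻¹ * Ch.rep P Y ∈ dcW P w then 1 else 0

theorem Tmat_mk_iff (P : BNPair G) (w : W P) (x y : G) :
    (Ch.rep P (Ch.mk P x))⁻¹ * Ch.rep P (Ch.mk P y) ∈ dcW P w ↔ x⁻¹ * y ∈ dcW P w := by
  obtain ⟨b, hb, h1⟩ := Ch.rep_mk P x
  obtain ⟨b', hb', h2⟩ := Ch.rep_mk P y
  rw [h1, h2]
  have e : (x * b)⁻¹ * (y * b') = b⁻¹ * (x⁻¹ * y) * b' := by group
  rw [e]
  exact dcW_mul_mem P w (P.B.inv_mem hb) hb'

theorem Tmat_mk_of_mem (P : BNPair G) {w : W P} {x y : G} (h : x⁻¹ * y ∈ dcW P w) :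
    Tmat P w (Ch.mk P x) (Ch.mk P y) = 1 := by
  rw [Tmat]
  exact if_pos ((Tmat_mk_iff P w x y).2 h)

theorem Tmat_mk_of_not_mem (P : BNPair G) {w : W P} {x y : G} (h : x⁻¹ * y ∉ dcW P w) :
    Tmat P w (Ch.mk P x) (Ch.mk P y) = 0 := by
  rw [Tmat]
  exact if_neg (fun h' => h ((Tmat_mk_iff P w x y).1 h'))

theorem Tmat_eq_zero_or_one (P : BNPair G) (w : W P) (X Y : Ch P) :
    Tmat P w X Y = 0 ∨ Tmat P w X Y = 1 := by
  obtain ⟨x, rfl⟩ := Ch.mk_surjective P X
  obtain ⟨y, rfl⟩ := Ch.mk_surjective P Y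
  by_cases h : x⁻¹ * y ∈ dcW P w
  · exact Or.inr (Tmat_mk_of_mem P h)
  · exact Or.inl (Tmat_mk_of_not_mem P h)

theorem Tmat_mk_eq_one_iff (P : BNPair G) (w : W P) (x y : G) :
    Tmat P w (Ch.mk P x) (Ch.mk P y) = 1 ↔ x⁻¹ * y ∈ dcW P w := by
  constructor
  · intro h
    by_contra hn
    rw [Tmat_mk_of_not_mem P hn] at h
    exact zero_ne_one h
  · exact Tmat_mk_of_mem P

/-- the index of `w`: the number of chambers `yB` inside `B w B` -/
noncomputable def indB [Finite G] (P : BNPair G) (w : W P) : ℝ :=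
  ∑ Y : Ch P, Tmat P w (Ch.mk P 1) Y

theorem indB_def [Finite G] (P : BNPair G) (w : W P) :
    indB P w = ∑ Y : Ch P, Tmat P w (Ch.mk P 1) Y := by rw [indB]

end BN

/-! ## the two-dimensional representations -/

/-- the angle `2πj/m` -/
noncomputable def fhθ (m j : ℕ) : ℝ := 2 * Real.pi * j / m

theorem fhθ_def (m j : ℕ) : fhθ m j = 2 * Real.pi * j / m := by rw [fhθ]

/-- `A = diag(u, -1)` -/
noncomputable def matA (u : ℝ) : Matrix (Fin 2) (Fin 2) ℝ := !![u, 0; 0, -1]

theorem matA_def (u : ℝ) : matA u = !![u, 0; 0, -1] := by rw [matA]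

/-- the upper left entry of `matB` -/
noncomputable def fhA (u v θ : ℝ) : ℝ := (v - 1 + 2 * Real.sqrt (u * v) * Real.cos θ) / (u + 1)

theorem fhA_def (u v θ : ℝ) :
    fhA u v θ = (v - 1 + 2 * Real.sqrt (u * v) * Real.cos θ) / (u + 1) := by rw [fhA]

/-- a matrix `B` with trace `v - 1`, determinant `-v` and `tr (A B) = 2 √(uv) cos θ` -/
noncomputable def matB (u v θ : ℝ) : Matrix (Fin 2) (Fin 2) ℝ :=
  !![fhA u v θ, 1; fhA u v θ * (v - 1 - fhA u v θ) + v, v - 1 - fhA u v θ]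

theorem matB_def (u v θ : ℝ) :
    matB u v θ = !![fhA u v θ, 1; fhA u v θ * (v - 1 - fhA u v θ) + v, v - 1 - fhA u v θ] := by
  rw [matB]

/-- the trace of `A B A ...` (`k` factors) -/
noncomputable def fhTrA (u v θ : ℝ) (k : ℕ) : ℝ :=
  if Even k then 2 * Real.sqrt (u * v) ^ (k / 2) * Real.cos ((k / 2 : ℕ) * θ)
  else (Real.sqrt (u * v) ^ (k / 2) * (u - 1) * Real.sin (((k / 2 : ℕ) + 1) * θ) +
    Real.sqrt (u * v) ^ (k / 2) / Real.sqrt (u * v) * (u * (v - 1)) * Real.sin ((k / 2 : ℕ) * θ)) /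
      Real.sin θ

theorem fhTrA_def (u v θ : ℝ) (k : ℕ) : fhTrA u v θ k =
    if Even k then 2 * Real.sqrt (u * v) ^ (k / 2) * Real.cos ((k / 2 : ℕ) * θ)
    else (Real.sqrt (u * v) ^ (k / 2) * (u - 1) * Real.sin (((k / 2 : ℕ) + 1) * θ) +
      Real.sqrt (u * v) ^ (k / 2) / Real.sqrt (u * v) * (u * (v - 1)) * Real.sin ((k / 2 : ℕ) * θ)) /
        Real.sin θ := by rw [fhTrA]

/-- the trace of `B A B ...` (`k` factors) -/
noncomputable def fhTrB (u v θ : ℝ) (k : ℕ) : ℝ :=
  if Even k then 2 * Real.sqrt (u * v) ^ (k / 2) * Real.cos ((k / 2 : ℕ) * θ)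
  else (Real.sqrt (u * v) ^ (k / 2) * (v - 1) * Real.sin (((k / 2 : ℕ) + 1) * θ) +
    Real.sqrt (u * v) ^ (k / 2) / Real.sqrt (u * v) * (v * (u - 1)) * Real.sin ((k / 2 : ℕ) * θ)) /
      Real.sin θ

theorem fhTrB_def (u v θ : ℝ) (k : ℕ) : fhTrB u v θ k =
    if Even k then 2 * Real.sqrt (u * v) ^ (k / 2) * Real.cos ((k / 2 : ℕ) * θ)
    else (Real.sqrt (u * v) ^ (k / 2) * (v - 1) * Real.sin (((k / 2 : ℕ) + 1) * θ) +
      Real.sqrt (u * v) ^ (k / 2) / Real.sqrt (u * v) * (v * (u - 1)) * Real.sin ((k / 2 : ℕ) * θ)) /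
        Real.sin θ := by rw [fhTrB]

/-- the Feit–Higman quantity: `4 |G : B|` divided by it is the rank of an idempotent -/
noncomputable def fhSigma (m : ℕ) (u v : ℝ) (j : ℕ) : ℝ :=
  2 * m + (m / (2 * Real.sin (fhθ m j) ^ 2)) *
    ((u - 1) ^ 2 / u + (v - 1) ^ 2 / v +
      2 * Real.cos (fhθ m j) * ((u - 1) * (v - 1)) / Real.sqrt (u * v))

theorem fhSigma_def (m : ℕ) (u v : ℝ) (j : ℕ) : fhSigma m u v j =
    2 * m + (m / (2 * Real.sin (fhθ m j) ^ 2)) *
      ((u - 1) ^ 2 / u + (v - 1) ^ 2 / v +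
        2 * Real.cos (fhθ m j) * ((u - 1) * (v - 1)) / Real.sqrt (u * v)) := by rw [fhSigma]

end Cfsg.Agent.Lib.Helper15.FH
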