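import Mathlib
import Cfsg.Agent.Lib.Helper15.FH0

/-!
# Feit–Higman (S1142), piece D1: alternating words in a rank 2 Coxeter system
-/

set_option autoImplicit false

namespace Cfsg.Agent.Lib.Helper15.FH

open Cfsg Cfsg.Agent.Lib.Helper8

section Dih

theorem mul_pow_swap_aux {M : Type*} [Monoid M] (x y : M) (i : ℕ) :
    x * (y * x) ^ i = (x * y) ^ i * x := by
  induction i with
  | zero => simp
  | succ i ih =>
    rw [pow_succ, ← mul_assoc, ih, pow_succ]
    simp only [mul_assoc]

variable {W : Type*} [Group W] {s t : W}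

theorem altP_mul_inv (hs : s * s = 1) (ht : t * t = 1) (q : ℕ) :
    altP s t q * (altP t s q)⁻¹ = (s * t) ^ q := by
  induction q generalizing s t with
  | zero => simp
  | succ q ih =>
    have h1 := ih ht hs
    have htinv : t⁻¹ = t := inv_eq_of_mul_eq_one_left ht
    rw [altP_succ, altP_succ, mul_inv_rev, htinv]
    calc s * altP t s q * ((altP s t q)⁻¹ * t)
        = s * (altP t s q * (altP s t q)⁻¹) * t := by group
      _ = s * (t * s) ^ q * t := by rw [h1]
      _ = (s * t) ^ (q + 1) := mul_pow_mul_aux _ _ _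

theorem altP_inv (hs : s * s = 1) (ht : t * t = 1) (k : ℕ) :
    (altP s t k)⁻¹ = if Even k then altP t s k else altP s t k := by
  have hsinv : s⁻¹ = s := inv_eq_of_mul_eq_one_left hs
  have htinv : t⁻¹ = t := inv_eq_of_mul_eq_one_left ht
  rcases Nat.even_or_odd' k with ⟨i, rfl | rfl⟩
  · rw [if_pos (by simp), altP_two_mul, altP_two_mul, ← inv_pow, mul_inv_rev, hsinv, htinv]
  · rw [if_neg (by simp), altP_two_mul_add_one, mul_inv_rev, ← inv_pow, mul_inv_rev, hsinv, htinv,
      mul_pow_swap_aux]

theorem altP_braid (hs : s * s = 1) (ht : t * t = 1) :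
    altP s t (orderOf (s * t)) = altP t s (orderOf (s * t)) := by
  have h := altP_mul_inv hs ht (orderOf (s * t))
  rw [pow_orderOf_eq_one] at h
  exact mul_inv_eq_one.1 h

theorem altP_ne (hs : s * s = 1) (ht : t * t = 1) {k : ℕ} (hk0 : 0 < k)
    (hk : k < orderOf (s * t)) : altP s t k ≠ altP t s k := by
  intro h
  have h1 := altP_mul_inv hs ht k
  rw [h, mul_inv_cancel] at h1
  have h2 := orderOf_dvd_of_pow_eq_one h1.symm
  have h3 := Nat.le_of_dvd hk0 h2
  omega

theorem altL_prefix_aux : ∀ (k : ℕ) (a b : W) (L₁ : List W) (c : W) (L₂ : List W),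
    altL a b k = L₁ ++ c :: L₂ →
      L₁ = altL a b L₁.length ∧ L₁ ++ [c] = altL a b (L₁.length + 1) ∧ L₁.length < k := by
  intro k
  induction k with
  | zero =>
    intro a b L₁ c L₂ h
    rw [altL_zero] at h
    simp at h
  | succ k ih =>
    intro a b L₁ c L₂ h
    rw [altL_succ] at h
    rcases L₁ with _ | ⟨d, L₁'⟩
    · simp only [List.nil_append, List.cons.injEq] at h
      obtain ⟨rfl, _⟩ := h
      refine ⟨rfl, ?_, by simp⟩
      simp [altL_succ, altL_zero]
    · simp only [List.cons_append, List.cons.injEq] at h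
      obtain ⟨rfl, h⟩ := h
      obtain ⟨h1, h2, h3⟩ := ih b a L₁' c L₂ h
      refine ⟨?_, ?_, ?_⟩
      · rw [List.length_cons, altL_succ, ← h1]
      · rw [List.length_cons, altL_succ, ← h2, List.cons_append]
      · rw [List.length_cons]; omega

theorem len_altP_step {S : Set W} (hE : ExchGen S) {a b : W} (ha : a ∈ S) (hb : b ∈ S) {k : ℕ}
    (hlen : len S (altP b a k) = k)
    (hne : ∀ i, 0 < i → i ≤ k → altP a b i ≠ altP b a i) :
    len S (altP a b (k + 1)) = k + 1 := by
  rw [altP_succ]
  have h1 := hE.len_mul_ne ha (altP b a k)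
  have h2 := hE.toInvGen.len_mul_le ha (altP b a k)
  by_contra hcon
  have hle : len S (a * (altL b a k).prod) ≤ len S (altL b a k).prod := by
    rw [← altP_def]; omega
  have hL : ∀ x ∈ altL b a k, x ∈ S := by
    have : ∀ (n : ℕ) (c d : W), c ∈ S → d ∈ S → ∀ x ∈ altL c d n, x ∈ S := by
      intro n
      induction n with
      | zero => intro c d _ _ x hx; rw [altL_zero] at hx; simp at hx
      | succ n ih =>
        intro c d hc hd x hx
        rw [altL_succ] at hx
        rcases List.mem_cons.1 hx with rfl | hx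
        · exact hc
        · exact ih d c hd hc x hx
    exact this k b a hb ha
  obtain ⟨L₁, c, L₂, hsplit, heq⟩ := hE.exchange ha (altL b a k) hL hle
  obtain ⟨e1, e2, e3⟩ := altL_prefix_aux k b a L₁ c L₂ hsplit
  have e4 : L₁.prod * c = altP b a (L₁.length + 1) := by
    rw [altP_def, ← e2, List.prod_append, List.prod_singleton]
  have e5 : a * L₁.prod = altP a b (L₁.length + 1) := by
    rw [altP_succ, altP_def, ← e1]
  rw [e4, e5] at heq
  exact hne (L₁.length + 1) (by omega) (by omega) heq

theorem len_altP_both (hE : ExchGen ({s, t} : Set W)) : ∀ k : ℕ, k ≤ orderOf (s * t) →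
    len ({s, t} : Set W) (altP s t k) = k ∧ len ({s, t} : Set W) (altP t s k) = k := by
  have hs : s * s = 1 := hE.sq s (by simp)
  have ht : t * t = 1 := hE.sq t (by simp)
  intro k
  induction k with
  | zero =>
    intro _
    simp [len_one]
  | succ k ih =>
    intro hk
    obtain ⟨h1, h2⟩ := ih (by omega)
    constructor
    · exact len_altP_step hE (by simp) (by simp) h2
        (fun i hi0 hik => altP_ne hs ht hi0 (by omega))
    · exact len_altP_step hE (by simp) (by simp) h1
        (fun i hi0 hik => (altP_ne hs ht hi0 (by omega)).symm)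

theorem len_altP (hE : ExchGen ({s, t} : Set W)) (hst : s ≠ t) {k : ℕ}
    (hk : k ≤ orderOf (s * t)) : len ({s, t} : Set W) (altP s t k) = k :=
  (len_altP_both hE k hk).1

theorem len_altP' (hE : ExchGen ({s, t} : Set W)) (hst : s ≠ t) {k : ℕ}
    (hk : k ≤ orderOf (s * t)) : len ({s, t} : Set W) (altP t s k) = k :=
  (len_altP_both hE k hk).2

end Dih

end Cfsg.Agent.Lib.Helper15.FH
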