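import Mathlib
import Cfsg.Agent.Lib.Helper15.FH_D1

/-!
# Feit–Higman (S1142), piece D2: enumeration of a finite rank 2 Coxeter system
-/

set_option autoImplicit false

namespace Cfsg.Agent.Lib.Helper15.FH

open Cfsg Cfsg.Agent.Lib.Helper8

section Dih2

variable {W : Type*} [Group W] {s t : W}

theorem two_le_orderOf [Finite W] (hE : ExchGen ({s, t} : Set W)) (hst : s ≠ t) :
    2 ≤ orderOf (s * t) := by
  have ht : t * t = 1 := hE.sq t (by simp)
  have hpos : 0 < orderOf (s * t) := orderOf_pos _
  have hne : orderOf (s * t) ≠ 1 := by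
    intro h
    rw [orderOf_eq_one_iff] at h
    apply hst
    have h1 : s = t⁻¹ := eq_inv_of_mul_eq_one_left h
    rw [h1]
    exact inv_eq_of_mul_eq_one_left ht
  omega

theorem dihedral_step_aux {S : Set W} (hE : ExchGen S) {a b : W} (ha : a ∈ S) (hb : b ∈ S)
    {m : ℕ} (hm : 0 < m) (hbraid : altP a b m = altP b a m)
    (hlenA : ∀ k ≤ m, len S (altP a b k) = k) (hlenB : ∀ k ≤ m, len S (altP b a k) = k)
    {x w : W} (hx : x = a ∨ x = b) {n : ℕ} (hn : n ≤ m) (hw' : x * w = altP a b n)
    (hlen : len S w = n + 1) :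
    n + 1 ≤ m ∧ (w = altP a b (n + 1) ∨ w = altP b a (n + 1)) := by
  have ha2 : a * a = 1 := hE.sq a ha
  have hb2 : b * b = 1 := hE.sq b hb
  rcases hx with rfl | rfl
  · -- x = a
    have hw : w = x * altP x b n := by rw [← hw', ← mul_assoc, ha2, one_mul]
    rcases n with _ | n'
    · refine ⟨by omega, Or.inl ?_⟩
      rw [hw]; simp
    · exfalso
      rw [altP_succ, ← mul_assoc, ha2, one_mul] at hw
      rw [hw, hlenB n' (by omega)] at hlen
      omega
  · -- x = b
    have hw : w = altP x a (n + 1) := by rw [altP_succ, ← hw', ← mul_assoc, hb2, one_mul]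
    refine ⟨?_, Or.inr hw⟩
    by_contra hcon
    have hnm : n = m := by omega
    subst hnm
    obtain ⟨m', rfl⟩ : ∃ m', n = m' + 1 := ⟨n - 1, by omega⟩
    rw [altP_succ, hbraid, altP_succ, ← mul_assoc, hb2, one_mul] at hw
    rw [hw, hlenA m' (by omega)] at hlen
    omega

theorem dihedral_cases_aux [Finite W] (hE : ExchGen ({s, t} : Set W)) (hst : s ≠ t) :
    ∀ (n : ℕ) (w : W), len ({s, t} : Set W) w = n →
      n ≤ orderOf (s * t) ∧ (w = altP s t n ∨ w = altP t s n) := by
  have hs : s * s = 1 := hE.sq s (by simp)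
  have ht : t * t = 1 := hE.sq t (by simp)
  have hm : 0 < orderOf (s * t) := orderOf_pos _
  intro n
  induction n with
  | zero =>
    intro w hw
    have h1 := hE.toInvGen.len_eq_zero hw
    subst h1
    exact ⟨Nat.zero_le _, Or.inl (by simp)⟩
  | succ n ih =>
    intro w hw
    have hw1 : w ≠ 1 := by
      rintro rfl
      rw [len_one] at hw
      omega
    obtain ⟨x, hx, hd⟩ := hE.toInvGen.exists_left_descent hw1
    have hlen' : len ({s, t} : Set W) (x * w) = n := by omega
    obtain ⟨hn, hcase⟩ := ih (x * w) hlen'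
    have hx' : x = s ∨ x = t := by simpa using hx
    rcases hcase with hc | hc
    · exact dihedral_step_aux hE (by simp) (by simp) hm (altP_braid hs ht)
        (fun k hk => len_altP hE hst hk) (fun k hk => len_altP' hE hst hk) hx' hn hc hw
    · have := dihedral_step_aux hE (a := t) (b := s) (by simp) (by simp) hm (altP_braid hs ht).symm
        (fun k hk => len_altP' hE hst hk) (fun k hk => len_altP hE hst hk) hx'.symm hn hc hw
      exact ⟨this.1, this.2.symm⟩

theorem dihedral_cases [Finite W] (hE : ExchGen ({s, t} : Set W)) (hst : s ≠ t) (w : W) :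
    len ({s, t} : Set W) w ≤ orderOf (s * t) ∧
      (w = altP s t (len ({s, t} : Set W) w) ∨ w = altP t s (len ({s, t} : Set W) w)) :=
  dihedral_cases_aux hE hst _ w rfl

theorem dihedral_sum [Fintype W] (hE : ExchGen ({s, t} : Set W)) (hst : s ≠ t) (F : W → ℝ) :
    ∑ w, F w = ∑ k ∈ Finset.range (orderOf (s * t) + 1), F (altP s t k) +
      ∑ k ∈ Finset.Ico 1 (orderOf (s * t)), F (altP t s k) := by
  classical
  have hs : s * s = 1 := hE.sq s (by simp)
  have ht : t * t = 1 := hE.sq t (by simp)
  set m := orderOf (s * t) with hm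
  have hinjA : Set.InjOn (fun k => altP s t k) (Finset.range (m + 1) : Set ℕ) := by
    intro k hk k' hk' h
    have hk1 : k ≤ m := by
      have := Finset.mem_range.1 (Finset.mem_coe.1 hk); omega
    have hk1' : k' ≤ m := by
      have := Finset.mem_range.1 (Finset.mem_coe.1 hk'); omega
    have e1 := len_altP hE hst hk1
    have e2 := len_altP hE hst hk1'
    simp only at h
    rw [h] at e1
    omega
  have hinjB : Set.InjOn (fun k => altP t s k) (Finset.Ico 1 m : Set ℕ) := by
    intro k hk k' hk' h
    have hk1 : k ≤ m := by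
      have := Finset.mem_Ico.1 (Finset.mem_coe.1 hk); omega
    have hk1' : k' ≤ m := by
      have := Finset.mem_Ico.1 (Finset.mem_coe.1 hk'); omega
    have e1 := len_altP' hE hst hk1
    have e2 := len_altP' hE hst hk1'
    simp only at h
    rw [h] at e1
    omega
  have hdisj : Disjoint ((Finset.range (m + 1)).image (fun k => altP s t k))
      ((Finset.Ico 1 m).image (fun k => altP t s k)) := by
    rw [Finset.disjoint_left]
    intro w hwA hwB
    obtain ⟨k, hk, rfl⟩ := Finset.mem_image.1 hwA
    obtain ⟨k', hk', h⟩ := Finset.mem_image.1 hwB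
    have hk1 : k ≤ m := by
      have := Finset.mem_range.1 hk; omega
    have hk2 := Finset.mem_Ico.1 hk'
    have e1 := len_altP hE hst hk1
    have e2 := len_altP' hE hst (k := k') (by omega)
    rw [h, e1] at e2
    subst e2
    exact altP_ne hs ht (by omega) (by omega) h.symm
  have hunion : (Finset.range (m + 1)).image (fun k => altP s t k) ∪
      (Finset.Ico 1 m).image (fun k => altP t s k) = Finset.univ := by
    rw [Finset.eq_univ_iff_forall]
    intro w
    obtain ⟨hn, hc⟩ := dihedral_cases hE hst w
    rw [Finset.mem_union]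
    rcases hc with hc | hc
    · left
      exact Finset.mem_image.2 ⟨_, Finset.mem_range.2 (by omega), hc.symm⟩
    · by_cases h0 : len ({s, t} : Set W) w = 0
      · left
        rw [h0] at hc
        exact Finset.mem_image.2 ⟨0, Finset.mem_range.2 (by omega), by rw [hc]; simp⟩
      · by_cases h1 : len ({s, t} : Set W) w = m
        · left
          rw [h1] at hc
          exact Finset.mem_image.2 ⟨m, Finset.mem_range.2 (by omega), by
            rw [hc]; exact altP_braid hs ht⟩
        · right
          exact Finset.mem_image.2 ⟨_, Finset.mem_Ico.2 ⟨by omega, by omega⟩, hc.symm⟩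
  rw [← hunion, Finset.sum_union hdisj, Finset.sum_image hinjA, Finset.sum_image hinjB]

theorem dihedral_card [Finite W] (hE : ExchGen ({s, t} : Set W)) (hst : s ≠ t) :
    Nat.card W = 2 * orderOf (s * t) := by
  haveI : Fintype W := Fintype.ofFinite W
  have h2 := two_le_orderOf hE hst
  have h := dihedral_sum hE hst (fun _ => (1 : ℝ))
  simp only [Finset.sum_const, Finset.card_univ, Finset.card_range, Nat.card_Ico, nsmul_eq_mul,
    mul_one] at h
  have h' : Fintype.card W = orderOf (s * t) + 1 + (orderOf (s * t) - 1) := by exact_mod_cast h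
  rw [Nat.card_eq_fintype_card, h']
  omega

end Dih2

end Cfsg.Agent.Lib.Helper15.FH
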