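import Mathlib
import Cfsg.Agent.Lib.Helper15.FH_D2

/-!
# Feit–Higman (S1142), piece D3: the map `ρ` on a finite rank 2 Coxeter system
-/

set_option autoImplicit false

namespace Cfsg.Agent.Lib.Helper15.FH

open Cfsg Cfsg.Agent.Lib.Helper8

section Dih3

variable {W : Type*} [Group W]

theorem rho_left_aux {S : Set W} (hE : ExchGen S) {a b : W} (ha : a ∈ S) {m : ℕ}
    (hcases : ∀ w, len S w ≤ m ∧ (w = altP a b (len S w) ∨ w = altP b a (len S w)))
    (hlenB : ∀ k ≤ m, len S (altP b a k) = k)
    {M : Type*} [Monoid M] {A' B' : M} (ρ : W → M)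
    (hA : ∀ k ≤ m, ρ (altP a b k) = altP A' B' k) (hB : ∀ k ≤ m, ρ (altP b a k) = altP B' A' k)
    (w : W) (hlt : len S w < len S (a * w)) : ρ (a * w) = A' * ρ w := by
  have ha2 := hE.sq a ha
  obtain ⟨hk, hc⟩ := hcases w
  have h1 := hE.toInvGen.len_mul_le ha w
  have h2 := (hcases (a * w)).1
  obtain ⟨k, hkdef⟩ : ∃ k, len S w = k := ⟨_, rfl⟩
  rw [hkdef] at hk hc h1 hlt
  have key : w = altP b a k := by
    rcases hc with hc | hc
    · rcases Nat.eq_zero_or_pos k with h0 | hpos
      · rw [hc, h0]; simp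
      · exfalso
        obtain ⟨k', hk'⟩ : ∃ k', k = k' + 1 := ⟨k - 1, by omega⟩
        have e : a * w = altP b a k' := by rw [hc, hk', altP_succ, ← mul_assoc, ha2, one_mul]
        have h3 := hlenB k' (by omega)
        rw [← e] at h3
        omega
    · exact hc
  have e : a * w = altP a b (k + 1) := by rw [altP_succ, ← key]
  rw [e, hA (k + 1) (by omega), altP_succ, ← hB k hk, ← key]

theorem rho_right_aux {S : Set W} (hE : ExchGen S) {a b : W} (ha : a ∈ S) {m : ℕ}
    (hcases : ∀ w, len S w ≤ m ∧ (w = altP a b (len S w) ∨ w = altP b a (len S w)))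
    (hlenA : ∀ k ≤ m, len S (altP a b k) = k) (hlenB : ∀ k ≤ m, len S (altP b a k) = k)
    {M : Type*} [Monoid M] {A' B' : M} (ρ : W → M)
    (hA : ∀ k ≤ m, ρ (altP a b k) = altP A' B' k) (hB : ∀ k ≤ m, ρ (altP b a k) = altP B' A' k)
    (w : W) (hlt : len S w < len S (w * a)) : ρ (w * a) = ρ w * A' := by
  have ha2 := hE.sq a ha
  obtain ⟨hk, hc⟩ := hcases w
  have h1 := hE.toInvGen.len_mul_right_le ha w
  have h2 := (hcases (w * a)).1
  obtain ⟨k, hkdef⟩ : ∃ k, len S w = k := ⟨_, rfl⟩
  rw [hkdef] at hk hc h1 hlt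
  -- either `w = altP a b k` with `k` even, or `w = altP b a k` with `k` odd
  have key : (w = altP a b k ∧ Even k) ∨ (w = altP b a k ∧ Odd k) := by
    rcases hc with hc | hc
    · rcases Nat.even_or_odd' k with ⟨i, hi | hi⟩
      · exact Or.inl ⟨hc, by rw [hi]; simp⟩
      · exfalso
        have e : w * a = altP a b (2 * i) := by
          rw [hc, hi, altP_succ_right_even, mul_assoc, ha2, mul_one]
        have h3 := hlenA (2 * i) (by omega)
        rw [← e] at h3
        omega
    · rcases Nat.even_or_odd' k with ⟨i, hi | hi⟩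
      · rcases Nat.eq_zero_or_pos i with h0 | hpos
        · left
          refine ⟨?_, by rw [hi]; simp⟩
          rw [hc, hi, h0]; simp
        · exfalso
          obtain ⟨i', hi'⟩ : ∃ i', i = i' + 1 := ⟨i - 1, by omega⟩
          have e0 : k = 2 * i' + 1 + 1 := by omega
          have e : w * a = altP b a (2 * i' + 1) := by
            rw [hc, e0, altP_succ_right_odd, mul_assoc, ha2, mul_one]
          have h3 := hlenB (2 * i' + 1) (by omega)
          rw [← e] at h3
          omega
      · exact Or.inr ⟨hc, by rw [hi]; simp⟩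
  rcases key with ⟨hw, hev⟩ | ⟨hw, hod⟩
  · obtain ⟨i, hi⟩ := hev
    have hi' : k = 2 * i := by omega
    have e : w * a = altP a b (2 * i + 1) := by rw [altP_succ_right_even, ← hi', ← hw]
    rw [e, hA (2 * i + 1) (by omega), altP_succ_right_even, ← hA (2 * i) (by omega), ← hi', ← hw]
  · obtain ⟨i, hi⟩ := hod
    have e : w * a = altP b a (2 * i + 1 + 1) := by rw [altP_succ_right_odd, ← hi, ← hw]
    rw [e, hB (2 * i + 1 + 1) (by omega), altP_succ_right_odd, ← hB (2 * i + 1) (by omega), ← hi,
      ← hw]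

variable {s t : W}

theorem exists_rho [Finite W] (hE : ExchGen ({s, t} : Set W)) (hst : s ≠ t)
    {M : Type*} [Monoid M] (A B : M)
    (hbraid : altP A B (orderOf (s * t)) = altP B A (orderOf (s * t))) :
    ∃ ρ : W → M, ρ 1 = 1 ∧ ρ s = A ∧ ρ t = B ∧
      (∀ w, len ({s, t} : Set W) w < len ({s, t} : Set W) (s * w) → ρ (s * w) = A * ρ w) ∧
      (∀ w, len ({s, t} : Set W) w < len ({s, t} : Set W) (t * w) → ρ (t * w) = B * ρ w) ∧
      (∀ w, len ({s, t} : Set W) w < len ({s, t} : Set W) (w * s) → ρ (w * s) = ρ w * A) ∧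
      (∀ w, len ({s, t} : Set W) w < len ({s, t} : Set W) (w * t) → ρ (w * t) = ρ w * B) ∧
      (∀ k ≤ orderOf (s * t), ρ (altP s t k) = altP A B k) ∧
      (∀ k ≤ orderOf (s * t), ρ (altP t s k) = altP B A k) := by
  classical
  have hs : s * s = 1 := hE.sq s (by simp)
  have ht : t * t = 1 := hE.sq t (by simp)
  have hm2 := two_le_orderOf hE hst
  let ρ : W → M := fun w =>
    if w = altP s t (len ({s, t} : Set W) w) then altP A B (len ({s, t} : Set W) w)
    else altP B A (len ({s, t} : Set W) w)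
  have hρA : ∀ k ≤ orderOf (s * t), ρ (altP s t k) = altP A B k := by
    intro k hk
    show (if altP s t k = altP s t (len ({s, t} : Set W) (altP s t k)) then _ else _) = _
    rw [len_altP hE hst hk, if_pos rfl]
  have hρB : ∀ k ≤ orderOf (s * t), ρ (altP t s k) = altP B A k := by
    intro k hk
    show (if altP t s k = altP s t (len ({s, t} : Set W) (altP t s k)) then _ else _) = _
    rw [len_altP' hE hst hk]
    by_cases h : altP t s k = altP s t k
    · rw [if_pos h]
      by_cases h0 : k = 0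
      · rw [h0]; simp
      · by_cases h1 : k = orderOf (s * t)
        · rw [h1]; exact hbraid
        · exact absurd h.symm (altP_ne hs ht (by omega) (by omega))
    · rw [if_neg h]
  have hcases := dihedral_cases hE hst
  have hcases' : ∀ w, len ({s, t} : Set W) w ≤ orderOf (s * t) ∧
      (w = altP t s (len ({s, t} : Set W) w) ∨ w = altP s t (len ({s, t} : Set W) w)) :=
    fun w => ⟨(hcases w).1, (hcases w).2.symm⟩
  have hlenA : ∀ k ≤ orderOf (s * t), len ({s, t} : Set W) (altP s t k) = k :=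
    fun k hk => len_altP hE hst hk
  have hlenB : ∀ k ≤ orderOf (s * t), len ({s, t} : Set W) (altP t s k) = k :=
    fun k hk => len_altP' hE hst hk
  refine ⟨ρ, ?_, ?_, ?_, ?_, ?_, ?_, ?_, hρA, hρB⟩
  · have := hρA 0 (by omega)
    simpa using this
  · have := hρA 1 (by omega)
    simpa using this
  · have := hρB 1 (by omega)
    simpa using this
  · exact rho_left_aux hE (by simp) hcases hlenB ρ hρA hρB
  · exact rho_left_aux hE (by simp) hcases' hlenA ρ hρB hρA
  · exact rho_right_aux hE (by simp) hcases hlenA hlenB ρ hρA hρB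
  · exact rho_right_aux hE (by simp) hcases' hlenB hlenA ρ hρB hρA

end Dih3

end Cfsg.Agent.Lib.Helper15.FH
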