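import Mathlib
import Cfsg.Agent.Lib.Helper15.FH_D2

/-!
# Feit–Higman (S1142), piece D4: indices along alternating words, reduction of the sum over `W`
-/

set_option autoImplicit false

namespace Cfsg.Agent.Lib.Helper15.FH

open Cfsg Cfsg.Agent.Lib.Helper8

section Dih4

variable {W : Type*} [Group W] {s t : W}

theorem ind_altP [Finite W] (hE : ExchGen ({s, t} : Set W)) (hst : s ≠ t)
    (q ind : W → ℝ) (ind_one : ind 1 = 1)
    (ind_mul : ∀ x ∈ ({s, t} : Set W), ∀ w,
      len ({s, t} : Set W) w < len ({s, t} : Set W) (x * w) → ind (x * w) = q x * ind w)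
    {k : ℕ} (hk : k ≤ orderOf (s * t)) :
    ind (altP s t k) = altP (q s) (q t) k ∧ ind (altP t s k) = altP (q t) (q s) k := by
  induction k with
  | zero => simp [ind_one]
  | succ k ih =>
    obtain ⟨h1, h2⟩ := ih (by omega)
    constructor
    · rw [altP_succ, ind_mul s (by simp) (altP t s k) (by
        rw [← altP_succ, len_altP hE hst hk, len_altP' hE hst (by omega)]; omega), h2, altP_succ]
    · rw [altP_succ, ind_mul t (by simp) (altP s t k) (by
        rw [← altP_succ, len_altP' hE hst hk, len_altP hE hst (by omega)]; omega), h1, altP_succ]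

theorem q_eq_of_odd [Finite W] (hE : ExchGen ({s, t} : Set W)) (hst : s ≠ t)
    (q ind : W → ℝ) (ind_one : ind 1 = 1) (ind_pos : ∀ w, 0 < ind w)
    (ind_mul : ∀ x ∈ ({s, t} : Set W), ∀ w,
      len ({s, t} : Set W) w < len ({s, t} : Set W) (x * w) → ind (x * w) = q x * ind w)
    (hodd : Odd (orderOf (s * t))) : q s = q t := by
  have hs : s * s = 1 := hE.sq s (by simp)
  have ht : t * t = 1 := hE.sq t (by simp)
  have hs1 : len ({s, t} : Set W) s = 1 := hE.len_simple (by simp)
  have ht1 : len ({s, t} : Set W) t = 1 := hE.len_simple (by simp)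
  have hqs : q s = ind s := by
    have h := ind_mul s (by simp) 1 (by rw [mul_one, len_one, hs1]; omega)
    rw [mul_one, ind_one, mul_one] at h
    exact h.symm
  have hqt : q t = ind t := by
    have h := ind_mul t (by simp) 1 (by rw [mul_one, len_one, ht1]; omega)
    rw [mul_one, ind_one, mul_one] at h
    exact h.symm
  have hps : 0 < q s := by rw [hqs]; exact ind_pos s
  have hpt : 0 < q t := by rw [hqt]; exact ind_pos t
  obtain ⟨i, hi⟩ := hodd
  have hb := altP_braid hs ht
  have h1 := ind_altP hE hst q ind ind_one ind_mul (le_refl (orderOf (s * t)))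
  rw [hb] at h1
  have h3 : altP (q s) (q t) (orderOf (s * t)) = altP (q t) (q s) (orderOf (s * t)) :=
    h1.1.symm.trans h1.2
  rw [hi, altP_two_mul_add_one, altP_two_mul_add_one, mul_comm (q t) (q s)] at h3
  exact mul_left_cancel₀ (pow_ne_zero _ (mul_pos hps hpt).ne') h3

theorem sum_reduce [Fintype W] (hE : ExchGen ({s, t} : Set W)) (hst : s ≠ t)
    (q ind : W → ℝ) (ind_one : ind 1 = 1)
    (ind_mul : ∀ x ∈ ({s, t} : Set W), ∀ w,
      len ({s, t} : Set W) w < len ({s, t} : Set W) (x * w) → ind (x * w) = q x * ind w)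
    (χ : W → ℝ) (a b : ℕ → ℝ)
    (ha : ∀ k ≤ orderOf (s * t), χ (altP s t k) = a k)
    (hb : ∀ k ≤ orderOf (s * t), χ (altP t s k) = b k)
    (hab : ∀ k, Even k → a k = b k) :
    ∑ w, (ind w)⁻¹ * χ w⁻¹ * χ w =
      ∑ k ∈ Finset.range (orderOf (s * t) + 1), (altP (q s) (q t) k)⁻¹ * a k ^ 2 +
        ∑ k ∈ Finset.Ico 1 (orderOf (s * t)), (altP (q t) (q s) k)⁻¹ * b k ^ 2 := by
  have hs : s * s = 1 := hE.sq s (by simp)
  have ht : t * t = 1 := hE.sq t (by simp)
  rw [dihedral_sum hE hst]
  congr 1
  · apply Finset.sum_congr rfl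
    intro k hk
    have hk' : k ≤ orderOf (s * t) := by
      have := Finset.mem_range.1 hk; omega
    rw [(ind_altP hE hst q ind ind_one ind_mul hk').1, altP_inv hs ht k, ha k hk']
    by_cases hev : Even k
    · rw [if_pos hev, hb k hk', ← hab k hev]; ring
    · rw [if_neg hev, ha k hk']; ring
  · apply Finset.sum_congr rfl
    intro k hk
    have hk' : k ≤ orderOf (s * t) := by
      have := Finset.mem_Ico.1 hk; omega
    rw [(ind_altP hE hst q ind ind_one ind_mul hk').2, altP_inv ht hs k, hb k hk']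
    by_cases hev : Even k
    · rw [if_pos hev, ha k hk', hab k hev]; ring
    · rw [if_neg hev, hb k hk']; ring

end Dih4

end Cfsg.Agent.Lib.Helper15.FH
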