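import Mathlib
import Cfsg.Agent.Lib.Helper15.FH0

/-!
# Feit–Higman (S1142), piece T1: the trigonometric sum for even `m`
-/

set_option autoImplicit false

namespace Cfsg.Agent.Lib.Helper15.FH

open Cfsg Cfsg.Agent.Lib.Helper8

theorem sum_range_two_mul_aux (f : ℕ → ℝ) (n : ℕ) :
    ∑ k ∈ Finset.range (2 * n), f k = ∑ i ∈ Finset.range n, (f (2 * i) + f (2 * i + 1)) := by
  induction n with
  | zero => simp
  | succ n ih =>
    rw [show 2 * (n + 1) = 2 * n + 1 + 1 by ring, Finset.sum_range_succ, Finset.sum_range_succ, ih,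
      Finset.sum_range_succ]
    ring

theorem sum_Ico_one_aux (g : ℕ → ℝ) (N : ℕ) (hN : 0 < N) :
    ∑ k ∈ Finset.Ico 1 N, g k = ∑ k ∈ Finset.range N, g k - g 0 := by
  rw [Finset.range_eq_Ico, Finset.sum_eq_sum_Ico_succ_bot hN]
  ring

/-- telescoping sum of cosines in arithmetic progression -/
theorem cos_tel_aux (θ β : ℝ) (N : ℕ) :
    2 * Real.sin θ * ∑ i ∈ Finset.range N, Real.cos (2 * i * θ + β) =
      Real.sin ((2 * N - 1) * θ + β) - Real.sin (β - θ) := by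
  induction N with
  | zero =>
    simp only [Finset.range_zero, Finset.sum_empty, mul_zero, Nat.cast_zero, zero_sub]
    rw [show (-1 : ℝ) * θ + β = β - θ by ring]
    ring
  | succ N ih =>
    rw [Finset.sum_range_succ, mul_add, ih]
    have h1 : (2 * ((N + 1 : ℕ) : ℝ) - 1) * θ + β = (2 * N * θ + β) + θ := by push_cast; ring
    have h2 : (2 * (N : ℝ) - 1) * θ + β = (2 * N * θ + β) - θ := by ring
    rw [h1, h2, Real.sin_add, Real.sin_sub]
    ring

theorem sin_fhθ_pos_aux (m j : ℕ) (hj : 0 < j) (hjm : 2 * j < m) : 0 < Real.sin (fhθ m j) := by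
  have hm : (0 : ℝ) < m := by
    have : 0 < m := by omega
    exact_mod_cast this
  have hj' : (0 : ℝ) < j := by exact_mod_cast hj
  have hjm' : (2 : ℝ) * j < m := by exact_mod_cast hjm
  apply Real.sin_pos_of_pos_of_lt_pi
  · rw [fhθ_def]
    have := Real.pi_pos
    positivity
  · rw [fhθ_def, div_lt_iff₀ hm]
    have := Real.pi_pos
    nlinarith

theorem ev_alg_aux (p R c : ℝ) (hp : p = R ^ 2) (hR : R ≠ 0) :
    p⁻¹ * (2 * R * c) ^ 2 = 4 * c ^ 2 := by
  subst hp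
  field_simp
  ring

theorem od_alg_aux (u v r R s s' S : ℝ) (hu : 0 < u) (hr : 0 < r) (hr2 : r ^ 2 = u * v)
    (hR : R ≠ 0) (hS : S ≠ 0) :
    (R ^ 2 * u)⁻¹ * ((R * (u - 1) * s' + R / r * (u * (v - 1)) * s) / S) ^ 2 =
      (u - 1) ^ 2 / (u * S ^ 2) * s' ^ 2 + 2 * (u - 1) * (v - 1) / (r * S ^ 2) * (s * s') +
        (v - 1) ^ 2 / (v * S ^ 2) * s ^ 2 := by
  have hv' : v = r ^ 2 / u := by
    field_simp
    linarith
  subst hv'
  have hu' : u ≠ 0 := hu.ne'
  have hr' : r ≠ 0 := hr.ne'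
  field_simp
  ring

theorem sin_mul_sin_succ_aux (x θ : ℝ) :
    Real.sin x * Real.sin (x + θ) = Real.cos θ / 2 - Real.cos (2 * x + θ) / 2 := by
  have h1 := Real.cos_sub (x + θ) x
  have h2 := Real.cos_add x (x + θ)
  rw [show x + θ - x = θ by ring] at h1
  rw [show x + (x + θ) = 2 * x + θ by ring] at h2
  rw [h1, h2]
  ring

/-- the four trigonometric sums, for an angle `θ` with `n θ ∈ π ℕ` and `sin θ ≠ 0` -/
theorem trig_sums_even_aux (n j : ℕ) (θ : ℝ) (hnθ : (n : ℝ) * θ = Real.pi * j)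
    (hS : Real.sin θ ≠ 0) :
    ∑ i ∈ Finset.range n, Real.cos (i * θ) ^ 2 = n / 2 ∧
    ∑ i ∈ Finset.range n, Real.sin (i * θ) ^ 2 = n / 2 ∧
    ∑ i ∈ Finset.range n, Real.sin ((i + 1) * θ) ^ 2 = n / 2 ∧
    ∑ i ∈ Finset.range n, Real.sin (i * θ) * Real.sin ((i + 1) * θ) = n * Real.cos θ / 2 := by
  have hper : ∀ x : ℝ, Real.sin (2 * n * θ + x) = Real.sin x := by
    intro x
    rw [show 2 * (n : ℝ) * θ + x = x + j * (2 * Real.pi) by rw [mul_assoc, hnθ]; ring]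
    exact Real.sin_add_nat_mul_two_pi x j
  have hA : ∑ i ∈ Finset.range n, Real.cos (2 * i * θ) = 0 := by
    have h := cos_tel_aux θ 0 n
    simp only [add_zero, zero_sub] at h
    rw [show (2 * (n : ℝ) - 1) * θ = 2 * n * θ + (-θ) by ring, hper, sub_self] at h
    rcases mul_eq_zero.1 h with h | h
    · exact absurd (by linarith) hS
    · exact h
  have hA' : ∑ i ∈ Finset.range n, Real.cos (2 * i * θ + 2 * θ) = 0 := by
    have h := cos_tel_aux θ (2 * θ) n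
    rw [show (2 * (n : ℝ) - 1) * θ + 2 * θ = 2 * n * θ + θ by ring, hper,
      show 2 * θ - θ = θ by ring, sub_self] at h
    rcases mul_eq_zero.1 h with h | h
    · exact absurd (by linarith) hS
    · exact h
  have hB : ∑ i ∈ Finset.range n, Real.cos (2 * i * θ + θ) = 0 := by
    have h := cos_tel_aux θ θ n
    rw [show (2 * (n : ℝ) - 1) * θ + θ = 2 * n * θ + 0 by ring, hper, sub_self, Real.sin_zero,
      sub_zero] at h
    rcases mul_eq_zero.1 h with h | h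
    · exact absurd (by linarith) hS
    · exact h
  have hC : ∑ i ∈ Finset.range n, Real.cos (i * θ) ^ 2 = n / 2 := by
    have : ∀ i ∈ Finset.range n, Real.cos (i * θ) ^ 2 = 1 / 2 + Real.cos (2 * i * θ) / 2 := by
      intro i _
      rw [Real.cos_sq, mul_assoc]
    rw [Finset.sum_congr rfl this, Finset.sum_add_distrib]
    simp only [← Finset.sum_div, hA]
    simp
  refine ⟨hC, ?_, ?_, ?_⟩
  · have : ∀ i ∈ Finset.range n, Real.sin (i * θ) ^ 2 = 1 - Real.cos (i * θ) ^ 2 := by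
      intro i _
      rw [Real.sin_sq]
    rw [Finset.sum_congr rfl this, Finset.sum_sub_distrib, hC]
    simp
    ring
  · have : ∀ i ∈ Finset.range n,
        Real.sin ((i + 1) * θ) ^ 2 = 1 / 2 - Real.cos (2 * i * θ + 2 * θ) / 2 := by
      intro i _
      rw [Real.sin_sq_eq_half_sub, show 2 * (((i : ℝ) + 1) * θ) = 2 * i * θ + 2 * θ by ring]
    rw [Finset.sum_congr rfl this, Finset.sum_sub_distrib]
    simp only [← Finset.sum_div, hA']
    simp
  · have : ∀ i ∈ Finset.range n, Real.sin (i * θ) * Real.sin ((i + 1) * θ) =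
        Real.cos θ / 2 - Real.cos (2 * i * θ + θ) / 2 := by
      intro i _
      rw [show ((i : ℝ) + 1) * θ = i * θ + θ by ring, sin_mul_sin_succ_aux,
        show 2 * ((i : ℝ) * θ) + θ = 2 * i * θ + θ by ring]
    rw [Finset.sum_congr rfl this, Finset.sum_sub_distrib]
    simp only [← Finset.sum_div, hB]
    simp

theorem fh_trig_sum_even (m j : ℕ) (u v : ℝ) (hu : 0 < u) (hv : 0 < v) (hj : 0 < j)
    (hjm : 2 * j < m) (hm : Even m) :
    ∑ k ∈ Finset.range (m + 1), (altP u v k)⁻¹ * fhTrA u v (fhθ m j) k ^ 2 +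
      ∑ k ∈ Finset.Ico 1 m, (altP v u k)⁻¹ * fhTrB u v (fhθ m j) k ^ 2 = fhSigma m u v j := by
  obtain ⟨n, rfl⟩ : ∃ n, m = 2 * n := by
    obtain ⟨n, hn⟩ := hm
    exact ⟨n, by omega⟩
  have hn : 0 < n := by omega
  have hn' : (n : ℝ) ≠ 0 := by
    have : n ≠ 0 := by omega
    exact_mod_cast this
  have hSpos := sin_fhθ_pos_aux (2 * n) j hj hjm
  rw [fhSigma_def]
  generalize hθ : fhθ (2 * n) j = θ at *
  have hnθ : (n : ℝ) * θ = Real.pi * j := by
    rw [← hθ, fhθ_def]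
    push_cast
    field_simp
  have hS : Real.sin θ ≠ 0 := hSpos.ne'
  generalize hr : Real.sqrt (u * v) = r
  have hr0 : 0 < r := by rw [← hr]; exact Real.sqrt_pos.2 (mul_pos hu hv)
  have hr2 : r ^ 2 = u * v := by rw [← hr]; exact Real.sq_sqrt (mul_pos hu hv).le
  have hr2' : r ^ 2 = v * u := by rw [hr2]; ring
  have hRi : ∀ i : ℕ, r ^ i ≠ 0 := fun i => pow_ne_zero _ hr0.ne'
  have hpow : ∀ i : ℕ, (u * v) ^ i = (r ^ i) ^ 2 := by
    intro i
    rw [← hr2]; ring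
  have hpow' : ∀ i : ℕ, (v * u) ^ i = (r ^ i) ^ 2 := by
    intro i
    rw [← hr2']; ring
  have hdiv : ∀ i : ℕ, (2 * i + 1) / 2 = i := by intro i; omega
  have hnev : ∀ i : ℕ, ¬ Even (2 * i + 1) := by intro i; simp
  have evA : ∀ i : ℕ, (altP u v (2 * i))⁻¹ * fhTrA u v θ (2 * i) ^ 2 = 4 * Real.cos (i * θ) ^ 2 := by
    intro i
    rw [altP_two_mul, fhTrA_def, if_pos (even_two_mul i), Nat.mul_div_cancel_left i (by norm_num), hr]
    exact ev_alg_aux _ _ _ (hpow i) (hRi i)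
  have evB : ∀ i : ℕ, (altP v u (2 * i))⁻¹ * fhTrB u v θ (2 * i) ^ 2 = 4 * Real.cos (i * θ) ^ 2 := by
    intro i
    rw [altP_two_mul, fhTrB_def, if_pos (even_two_mul i), Nat.mul_div_cancel_left i (by norm_num), hr]
    exact ev_alg_aux _ _ _ (hpow' i) (hRi i)
  have odA : ∀ i : ℕ, (altP u v (2 * i + 1))⁻¹ * fhTrA u v θ (2 * i + 1) ^ 2 =
      (u - 1) ^ 2 / (u * Real.sin θ ^ 2) * Real.sin ((i + 1) * θ) ^ 2 +
        2 * (u - 1) * (v - 1) / (r * Real.sin θ ^ 2) * (Real.sin (i * θ) * Real.sin ((i + 1) * θ)) +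
          (v - 1) ^ 2 / (v * Real.sin θ ^ 2) * Real.sin (i * θ) ^ 2 := by
    intro i
    rw [altP_two_mul_add_one, fhTrA_def, if_neg (hnev i), hdiv i, hr, hpow i]
    exact od_alg_aux u v r (r ^ i) _ _ _ hu hr0 hr2 (hRi i) hS
  have odB : ∀ i : ℕ, (altP v u (2 * i + 1))⁻¹ * fhTrB u v θ (2 * i + 1) ^ 2 =
      (v - 1) ^ 2 / (v * Real.sin θ ^ 2) * Real.sin ((i + 1) * θ) ^ 2 +
        2 * (v - 1) * (u - 1) / (r * Real.sin θ ^ 2) * (Real.sin (i * θ) * Real.sin ((i + 1) * θ)) +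
          (u - 1) ^ 2 / (u * Real.sin θ ^ 2) * Real.sin (i * θ) ^ 2 := by
    intro i
    rw [altP_two_mul_add_one, fhTrB_def, if_neg (hnev i), hdiv i, hr, hpow' i]
    exact od_alg_aux v u r (r ^ i) _ _ _ hv hr0 hr2' (hRi i) hS
  obtain ⟨hC, hS2, hS2', hSS⟩ := trig_sums_even_aux n j θ hnθ hS
  have hcosn : Real.cos (n * θ) ^ 2 = 1 := by
    rw [hnθ, Real.cos_sq', mul_comm, Real.sin_nat_mul_pi]
    ring
  have hB0 : (altP v u 0)⁻¹ * fhTrB u v θ 0 ^ 2 = 4 := by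
    have h := evB 0
    rw [Nat.mul_zero] at h
    rw [h]
    simp
  rw [Finset.sum_range_succ, sum_range_two_mul_aux, sum_Ico_one_aux _ _ (by omega),
    sum_range_two_mul_aux, hB0, evA n, hcosn]
  simp only [evA, evB, odA, odB, Finset.sum_add_distrib, ← Finset.mul_sum, hC, hS2, hS2', hSS]
  have hu' : u ≠ 0 := hu.ne'
  have hv' : v ≠ 0 := hv.ne'
  have hr' : r ≠ 0 := hr0.ne'
  push_cast
  field_simp
  ring

end Cfsg.Agent.Lib.Helper15.FH
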