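import Mathlib
import Cfsg.Agent.Lib.Helper15.FH_D3
import Cfsg.Agent.Lib.Helper15.FH_D4
import Cfsg.Agent.Lib.Helper15.FH_T1
import Cfsg.Agent.Lib.Helper34.FHR1
import Cfsg.Agent.Lib.Helper12.FHMc
import Cfsg.Agent.Lib.Helper8.FHB14
import Cfsg.Agent.Lib.Helper75.FH_R2b
import Cfsg.Agent.Lib.Helper97.FH_R3
import Cfsg.Agent.Lib.Lead.FH_T2
import Cfsg.Agent.Lib.Helper32.FHNb

/-!
# Feit–Higman (S1142): assembly of the pieces
-/

set_option autoImplicit false

namespace Cfsg.Agent.Lib.Helper15.FH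

open Cfsg Cfsg.Agent.Lib.Helper8

universe u

theorem fh_trig_sum (m j : ℕ) (u v : ℝ) (hu : 0 < u) (hv : 0 < v) (hj : 0 < j) (hjm : 2 * j < m)
    (hodd : Odd m → u = v) :
    ∑ k ∈ Finset.range (m + 1), (altP u v k)⁻¹ * fhTrA u v (fhθ m j) k ^ 2 +
      ∑ k ∈ Finset.Ico 1 m, (altP v u k)⁻¹ * fhTrB u v (fhθ m j) k ^ 2 = fhSigma m u v j := by
  rcases Nat.even_or_odd m with hm | hm
  · exact fh_trig_sum_even m j u v hu hv hj hjm hm
  · obtain rfl := hodd hm
    exact Cfsg.Agent.Lib.Lead.FHT2.fh_trig_sum_odd m j u hu hj hjm hm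

theorem fhTrA_eq_fhTrB_of_even (u v θ : ℝ) (k : ℕ) (hk : Even k) :
    fhTrA u v θ k = fhTrB u v θ k := by
  rw [fhTrA_def, fhTrB_def, if_pos hk, if_pos hk]

/-- Feit–Higman for (B,N)-pairs of rank 2. -/
theorem fh_main {G : Type u} [Group G] [Finite G] (P : BNPair G) (h2 : P.rank = 2) :
    ((P.B ⊓ P.N).subgroupOf P.N).index ∈ ({4, 6, 8, 12, 16} : Set ℕ) := by
  classical
  have hcard : Nat.card P.S = 2 := h2
  obtain ⟨a, b, hab, hS⟩ := Nat.card_eq_two_iff.1 hcard
  set s : W P := cl P (sN P a.2) with hs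
  set t : W P := cl P (sN P b.2) with ht
  have hst : s ≠ t := fun h => hab (Subtype.ext (cl_sN_inj P a.2 b.2 h))
  have hSW : SW P = {s, t} := by
    ext w
    constructor
    · rintro ⟨σ, hσ, rfl⟩
      have h1 : (⟨σ, hσ⟩ : P.S) ∈ ({a, b} : Set P.S) := by rw [hS]; trivial
      rcases h1 with h1 | h1
      · left
        rw [hs, ← h1]
      · right
        rw [Set.mem_singleton_iff] at h1
        rw [Set.mem_singleton_iff, ht, ← h1]
    · rintro (rfl | rfl)
      · exact mem_SW P a.2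
      · exact mem_SW P b.2
  have hE : ExchGen ({s, t} : Set (W P)) := hSW ▸ SW_exchGen P
  let _ : Fintype (W P) := Fintype.ofFinite _
  obtain ⟨D, hD⟩ : ∃ D : HeckeData (W P) ({s, t} : Set (W P)) (Ch P),
      ∀ x ∈ ({s, t} : Set (W P)), ∃ k : ℕ, 2 ≤ k ∧ D.q x = k := by
    rw [← hSW]
    exact Cfsg.Agent.Lib.Helper8.FHB.bn_heckeData P
  set m := orderOf (s * t) with hm
  have hm2 : 2 ≤ m := two_le_orderOf hE hst
  have hidx : ((P.B ⊓ P.N).subgroupOf P.N).index = 2 * m := by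
    rw [hm, ← dihedral_card hE hst]
    rfl
  obtain ⟨u, hu2, hu⟩ := hD s (by simp)
  obtain ⟨v, hv2, hv⟩ := hD t (by simp)
  have hodd : Odd m → u = v := by
    intro ho
    have h3 := q_eq_of_odd hE hst D.q D.ind D.ind_one D.ind_pos D.ind_mul ho
    rw [hu, hv] at h3
    exact_mod_cast h3
  have hu0 : (0 : ℝ) < u := by
    have : 0 < u := by omega
    exact_mod_cast this
  have hv0 : (0 : ℝ) < v := by
    have : 0 < v := by omega
    exact_mod_cast this
  have key : m ∈ ({2, 3, 4, 6, 8} : Set ℕ) := by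
    apply Cfsg.Agent.Lib.Helper32.fh_arith m u v hm2 hu2 hv2 hodd
    intro j hj hjm
    have hsin : Real.sin (fhθ m j) ≠ 0 := (sin_fhθ_pos_aux m j hj hjm).ne'
    have hodd' : Odd m → (u : ℝ) = v := fun ho => by exact_mod_cast hodd ho
    obtain ⟨ρ, ρ1, ρs, ρt, ρL, ρL', ρR, ρR', ρA, ρB⟩ :=
      exists_rho hE hst (matA u) (matB u v (fhθ m j)) (Cfsg.Agent.Lib.Helper97.FHR3.mat_braid m j u v hu0 hv0 hj hjm hodd')
    have hu1 : (u : ℝ) + 1 ≠ 0 := by positivity
    obtain ⟨r, hr0, hr⟩ := Cfsg.Agent.Lib.Helper12.FHMc.multiplicity hE D ρ ρ1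
      (by
        rintro x (rfl | rfl) w hw
        · rw [ρL w hw, ρs]
        · rw [ρL' w hw, ρt])
      (by
        rintro x (rfl | rfl) w hw
        · rw [ρR w hw, ρs]
        · rw [ρR' w hw, ρt])
      (by
        rintro x (rfl | rfl)
        · rw [ρs, hu]; exact Cfsg.Agent.Lib.Helper34.matA_sq u
        · rw [ρt, hv]; exact Cfsg.Agent.Lib.Helper34.matB_sq u v _)
      (by
        intro M hM
        have hA := hM s (by simp)
        have hB := hM t (by simp)
        rw [ρs] at hA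
        rw [ρt] at hB
        exact Cfsg.Agent.Lib.Helper34.mat_comm_scalar u v _ hu1 M hA hB)
    have hsum := sum_reduce hE hst D.q D.ind D.ind_one D.ind_mul (fun w => (ρ w).trace)
      (fhTrA u v (fhθ m j)) (fhTrB u v (fhθ m j))
      (fun k hk => by
        show (ρ (altP s t k)).trace = _
        rw [ρA k hk, Cfsg.Agent.Lib.Helper75.FH.trace_altP_A u v _ hu0 hv0 hsin])
      (fun k hk => by
        show (ρ (altP t s k)).trace = _
        rw [ρB k hk, Cfsg.Agent.Lib.Helper75.FH.trace_altP_B u v _ hu0 hv0 hsin])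
      (fun k hk => fhTrA_eq_fhTrB_of_even _ _ _ k hk)
    rw [hu, hv, fh_trig_sum m j u v hu0 hv0 hj hjm hodd'] at hsum
    rw [hsum] at hr
    refine ⟨4 * (Fintype.card (Ch P) : ℚ) / r, ?_⟩
    have hr0' : (r : ℝ) ≠ 0 := by
      have : r ≠ 0 := by omega
      exact_mod_cast this
    push_cast
    rw [eq_div_iff hr0']
    exact hr
  rw [hidx]
  rcases key with h | h | h | h | h
  · rw [h]; simp
  · rw [h]; simp
  · rw [h]; simp
  · rw [h]; simp
  · rw [Set.mem_singleton_iff] at h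
    rw [h]; simp

end Cfsg.Agent.Lib.Helper15.FH
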