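import Mathlib
import Cfsg.Agent.Lib.Helper72.JLDefs
import Cfsg.Agent.Lib.Helper41.Cores
import Cfsg.Agent.Lib.Helper82.JcOCPC

/-!
# S2942 project JL (helper72), piece JL-O2 (helper15)

`O₂(X / C_X(V)) = 1` for `V` the normal closure of `Ω₁(Z(T))`: Frattini argument.
-/

set_option autoImplicit false

namespace Cfsg.Agent.Lib.Helper15.JL

open Cfsg.Agent.Lib.Helper72.JL Cfsg.Agent.Lib.Helper72.SC Cfsg.Agent.Lib.Helper78.Jc

universe u

theorem o2 : O2Stmt.{u} := by
  intro X _ _ T hS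
  have : Fact (Nat.Prime 2) := ⟨Nat.prime_two⟩
  have hTnd : ¬ 2 ∣ T.index := by
    intro h
    exact (Nat.not_even_iff_odd.mpr hS.hTodd) (even_iff_two_dvd.mpr h)
  let Ts : Sylow 2 X := hS.hT2.toSylow hTnd
  have hTs : (Ts : Subgroup X) = T := IsPGroup.toSylow_coe _ _
  have hOn : (Cfsg.pCore 2 ↥(rhoT T).range).Normal :=
    Cfsg.Agent.Lib.Helper82.Jc.pCore_normal_aux 2 _
  -- `D`: the preimage of `O₂` of the image
  let D : Subgroup X := (Cfsg.pCore 2 ↥(rhoT T).range).comap (rhoT T).rangeRestrict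
  have hDn : D.Normal := hOn.comap _
  have hfr := Cfsg.Agent.Lib.Helper41.frattini_inf Ts D
  rw [hTs] at hfr
  have hsurj : Function.Surjective (rhoT T).rangeRestrict := (rhoT T).rangeRestrict_surjective
  have hOT : Cfsg.pCore 2 ↥(rhoT T).range ≤ T.map (rhoT T).rangeRestrict := by
    have h := Cfsg.Agent.Lib.Helper41.pCore_le_sylow (Ts.mapSurjective hsurj)
    rw [Sylow.coe_mapSurjective, hTs] at h
    exact h
  -- every `d ∈ D` acts on `V` as some `t ∈ T ⊓ D`
  have hdec : ∀ d ∈ D, ∃ t ∈ T ⊓ D, rhoT T d = rhoT T t := by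
    intro d hd
    have hd' : (rhoT T).rangeRestrict d ∈ Cfsg.pCore 2 ↥(rhoT T).range := hd
    obtain ⟨t, ht, hte⟩ := hOT hd'
    refine ⟨t, ⟨ht, ?_⟩, ?_⟩
    · show (rhoT T).rangeRestrict t ∈ Cfsg.pCore 2 ↥(rhoT T).range
      rw [hte]; exact hd'
    · have h1 := congrArg Subtype.val hte
      exact h1.symm
  -- the action formula
  have hact : ∀ (x : X) (v : ↥(VT T)), ((rhoT T x v : ↥(VT T)) : X) = x * v * x⁻¹ := by
    intro x v
    rfl
  -- `U := V ⊓ C(T ⊓ D)` is normal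
  let U : Subgroup X := VT T ⊓ Subgroup.centralizer ((T ⊓ D : Subgroup X) : Set X)
  have hUn : U.Normal := by
    constructor
    intro u hu x
    obtain ⟨huV, huC⟩ := Subgroup.mem_inf.mp hu
    have hx : x ∈ Subgroup.normalizer ((T ⊓ D : Subgroup X) : Set X) ⊔ D := by
      rw [hfr]; exact Subgroup.mem_top x
    obtain ⟨n, hn, d, hd, rfl⟩ := Subgroup.mem_sup_of_normal_right.mp hx
    -- `d` centralizes `u`
    obtain ⟨t, ht, hdt⟩ := hdec d hd
    have h1 : d * u * d⁻¹ = t * u * t⁻¹ := by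
      have h2 := congrArg (fun f : MulAut ↥(VT T) => ((f ⟨u, huV⟩ : ↥(VT T)) : X)) hdt
      simpa [hact] using h2
    have h3 : t * u * t⁻¹ = u := by
      have h4 := Subgroup.mem_centralizer_iff.mp huC t ht
      rw [h4]; group
    have h5 : n * d * u * (n * d)⁻¹ = n * u * n⁻¹ := by
      have h6 : n * d * u * (n * d)⁻¹ = n * (d * u * d⁻¹) * n⁻¹ := by group
      rw [h6, h1, h3]
    rw [h5]
    refine Subgroup.mem_inf.mpr ⟨(VT_normal T).conj_mem u huV n, ?_⟩
    rw [Subgroup.mem_centralizer_iff]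
    intro s hs
    have hs' : n⁻¹ * s * n ∈ (T ⊓ D : Subgroup X) := by
      have h7 := (Subgroup.mem_normalizer_iff.mp (inv_mem hn) s).mp hs
      simpa using h7
    have h8 := Subgroup.mem_centralizer_iff.mp huC _ hs'
    calc s * (n * u * n⁻¹) = n * ((n⁻¹ * s * n) * u) * n⁻¹ := by group
      _ = n * (u * (n⁻¹ * s * n)) * n⁻¹ := by rw [h8]
      _ = n * u * n⁻¹ * s := by group
  -- `Z ≤ U`, hence `V ≤ U`
  have hZU : (Cfsg.omegaCenterOf T : Set X) ⊆ U := by
    intro z hz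
    refine Subgroup.mem_inf.mpr ⟨Subgroup.subset_normalClosure hz, ?_⟩
    rw [Subgroup.mem_centralizer_iff]
    intro s hs
    exact (Cfsg.Agent.Lib.Helper82.Jc.oc_comm T z hz s hs.1).symm
  have hVU : VT T ≤ U := by
    have := hUn
    exact Subgroup.normalClosure_le_normal hZU
  -- `T ⊓ D` acts trivially
  have htriv : ∀ t ∈ T ⊓ D, rhoT T t = 1 := by
    intro t ht
    ext v
    rw [hact]
    have hvC := (Subgroup.mem_inf.mp (hVU v.2)).2
    have h4 := Subgroup.mem_centralizer_iff.mp hvC t ht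
    simp only [MulAut.one_apply]
    rw [h4]; group
  -- conclusion
  rw [eq_bot_iff]
  intro o ho
  obtain ⟨d, rfl⟩ := hsurj o
  have hd : d ∈ D := ho
  obtain ⟨t, ht, hdt⟩ := hdec d hd
  rw [Subgroup.mem_bot]
  apply Subtype.ext
  show rhoT T d = 1
  rw [hdt, htriv t ht]

end Cfsg.Agent.Lib.Helper15.JL
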