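import Cfsg.Agent.Lib.Helper42.Sec16

set_option autoImplicit false
open scoped commutatorElement

namespace Cfsg.Agent.Lib.Helper15

open Cfsg.Agent.Lib.Helper42

universe u

section ks

variable {X : Type u} [Group X]

theorem ks_le_normalizer_of_conj {N H : Subgroup X}
    (h : ∀ n ∈ N, ∀ x ∈ H, n * x * n⁻¹ ∈ H) : N ≤ Subgroup.normalizer (H : Set X) := by
  intro n hn
  rw [Subgroup.mem_normalizer_iff]
  intro x
  constructor
  · exact h n hn x
  · intro hx
    have := h n⁻¹ (N.inv_mem hn) _ hx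
    simpa [mul_assoc] using this

theorem ks_conj_mem {N H : Subgroup X} (h : N ≤ Subgroup.normalizer (H : Set X)) {n x : X}
    (hn : n ∈ N) (hx : x ∈ H) : n * x * n⁻¹ ∈ H :=
  ((Subgroup.mem_normalizer_iff.mp (h hn)) x).mp hx

theorem ks_conj_mem' {N H : Subgroup X} (h : N ≤ Subgroup.normalizer (H : Set X)) {n x : X}
    (hn : n ∈ N) (hx : x ∈ H) : n⁻¹ * x * n ∈ H := by
  have := ks_conj_mem h (N.inv_mem hn) hx
  simpa using this

theorem ks_le_normalizer_map_subtype {N : Subgroup X} (H' : Subgroup ↥N) [hH : H'.Normal] :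
    N ≤ Subgroup.normalizer ((H'.map N.subtype : Subgroup X) : Set X) := by
  apply ks_le_normalizer_of_conj
  rintro n hn _ ⟨x, hx, rfl⟩
  exact ⟨⟨n, hn⟩ * x * ⟨n, hn⟩⁻¹, hH.conj_mem x hx _, by simp⟩

theorem ks_le_normalizer_inf {N H K : Subgroup X} (hH : N ≤ Subgroup.normalizer (H : Set X))
    (hK : N ≤ Subgroup.normalizer (K : Set X)) :
    N ≤ Subgroup.normalizer ((H ⊓ K : Subgroup X) : Set X) := by
  apply ks_le_normalizer_of_conj
  intro n hn x hx
  exact ⟨ks_conj_mem hH hn hx.1, ks_conj_mem hK hn hx.2⟩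

theorem ks_le_normalizer_centralizer {N H : Subgroup X} (hH : N ≤ Subgroup.normalizer (H : Set X)) :
    N ≤ Subgroup.normalizer ((Subgroup.centralizer (H : Set X) : Subgroup X) : Set X) := by
  apply ks_le_normalizer_of_conj
  intro n hn x hx
  rw [Subgroup.mem_centralizer_iff] at hx ⊢
  intro h hh
  have h1 := hx (n⁻¹ * h * n) (ks_conj_mem' hH hn hh)
  calc h * (n * x * n⁻¹) = n * ((n⁻¹ * h * n) * x) * n⁻¹ := by group
    _ = n * (x * (n⁻¹ * h * n)) * n⁻¹ := by rw [h1]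
    _ = n * x * n⁻¹ * h := by group

theorem ks_le_normalizer_commutator {N H K : Subgroup X} (hH : N ≤ Subgroup.normalizer (H : Set X))
    (hK : N ≤ Subgroup.normalizer (K : Set X)) :
    N ≤ Subgroup.normalizer ((⁅H, K⁆ : Subgroup X) : Set X) := by
  intro n hn
  rw [← cj_eq_self_iff, cj_commutator, cj_eq_of_mem_normalizer (hH hn),
    cj_eq_of_mem_normalizer (hK hn)]

theorem ks_commutator_le_self (H : Subgroup X) : ⁅H, H⁆ ≤ H :=
  Subgroup.commutator_le.mpr fun _ ha _ hb =>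
    H.mul_mem (H.mul_mem (H.mul_mem ha hb) (H.inv_mem ha)) (H.inv_mem hb)

theorem ks_commutator_le_left {H K : Subgroup X} (h : K ≤ Subgroup.normalizer (H : Set X)) :
    ⁅H, K⁆ ≤ H :=
  Subgroup.commutator_le.mpr fun a ha b hb => by
    have h1 : b * a⁻¹ * b⁻¹ ∈ H := ks_conj_mem h hb (H.inv_mem ha)
    have : ⁅a, b⁆ = a * (b * a⁻¹ * b⁻¹) := by rw [commutatorElement_def]; group
    rw [this]; exact H.mul_mem ha h1

theorem ks_commutator_le_right {H K : Subgroup X} (h : H ≤ Subgroup.normalizer (K : Set X)) :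
    ⁅H, K⁆ ≤ K :=
  Subgroup.commutator_le.mpr fun a ha b hb => by
    have h1 : a * b * a⁻¹ ∈ K := ks_conj_mem h ha hb
    have : ⁅a, b⁆ = (a * b * a⁻¹) * b⁻¹ := by rw [commutatorElement_def]
    rw [this]; exact K.mul_mem h1 (K.inv_mem hb)

variable [Finite X] {p : ℕ} [Fact p.Prime]

theorem ks_isPGroup_of_coprime_trivial (H : Subgroup X)
    (h : ∀ y ∈ H, (orderOf y).Coprime p → y = 1) : IsPGroup p H := by
  rintro ⟨d, hd⟩
  have hpos : 0 < orderOf d := orderOf_pos d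
  obtain ⟨k, m, hm, hkm⟩ :=
    Nat.exists_eq_pow_mul_and_not_dvd hpos.ne' p (Fact.out : p.Prime).ne_one
  refine ⟨k, ?_⟩
  have hy : d ^ (p ^ k) = 1 := by
    apply h _ (H.pow_mem hd _)
    have hdvd : orderOf (d ^ (p ^ k)) ∣ m := by
      apply orderOf_dvd_of_pow_eq_one
      rw [← pow_mul, ← hkm, pow_orderOf_eq_one]
    have hcop : Nat.Coprime m p :=
      (Nat.Coprime.symm ((Nat.Prime.coprime_iff_not_dvd (Fact.out : p.Prime)).mpr hm))
    exact Nat.Coprime.coprime_dvd_left hdvd hcop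
  apply Subtype.ext
  simpa using hy

theorem ks_coprime_comm {E E₀ : Subgroup X} (hE : IsPGroup p E) (hE₀ : E₀ ≤ E) {x : X}
    (hx : (orderOf x).Coprime p)
    (h1 : ∀ e ∈ E, ⁅e, x⁆ ∈ E₀) (h0 : ∀ n ∈ E₀, x * n = n * x) :
    ∀ e ∈ E, x * e = e * x := by
  intro e he
  have hcE₀ := h1 e he
  have hcx : Commute ⁅e, x⁆ x := (h0 _ hcE₀).symm
  have h2 : e * x * e⁻¹ = ⁅e, x⁆ * x := by rw [commutatorElement_def]; group
  have h3 : ⁅e, x⁆ ^ orderOf x = 1 := by
    have h4 : (e * x * e⁻¹) ^ orderOf x = 1 := by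
      rw [conj_pow, pow_orderOf_eq_one]; group
    rw [h2, hcx.mul_pow, pow_orderOf_eq_one, mul_one] at h4
    exact h4
  have h5 : orderOf ⁅e, x⁆ ∣ orderOf x := orderOf_dvd_of_pow_eq_one h3
  obtain ⟨j, hj⟩ := IsPGroup.iff_orderOf.mp hE ⟨⁅e, x⁆, hE₀ hcE₀⟩
  rw [Subgroup.orderOf_mk] at hj
  have h6 : Nat.Coprime (orderOf ⁅e, x⁆) (orderOf x) := by
    rw [hj]; exact Nat.Coprime.pow_left j hx.symm
  have h7 : orderOf ⁅e, x⁆ = 1 := Nat.Coprime.eq_one_of_dvd h6 h5
  have h8 : ⁅e, x⁆ = 1 := orderOf_eq_one_iff.mp h7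
  exact (commutatorElement_eq_one_iff_mul_comm.mp h8).symm

theorem ks_OT_of_normal {N M T : Subgroup X}
    (hOT : ∀ P : Subgroup X, IsPGroup p P → P ≤ N → N ≤ Subgroup.normalizer (P : Set X) → P ≤ T)
    (hMN : M ≤ N) (hNM : N ≤ Subgroup.normalizer (M : Set X)) :
    ∀ P : Subgroup X, IsPGroup p P → P ≤ M → M ≤ Subgroup.normalizer (P : Set X) → P ≤ T := by
  intro P hP hPM hMP
  obtain ⟨R, hR⟩ := exists_isSylIn p M
  set O : Subgroup X := ⨅ n : N, cj (n : X) R with hO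
  have hOR : O ≤ R := by
    have := iInf_le (fun n : N => cj (n : X) R) (1 : N)
    simpa [cj_one] using this
  have hPO : P ≤ O := by
    rw [hO]
    refine le_iInf (fun n => ?_)
    have h1 : cj (n : X)⁻¹ P ≤ R := by
      apply hR.normal_le
      · intro x hx
        rw [mem_cj] at hx
        have hxM := hPM hx
        have := ks_conj_mem' hNM n.2 hxM
        simpa [mul_assoc] using this
      · exact isPGroup_cj hP
      · rw [normalizer_cj]
        intro m hm
        rw [mem_cj]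
        apply hMP
        have := ks_conj_mem hNM n.2 hm
        simpa using this
    rw [cj_le_iff] at h1
    simpa using h1
  have hOp : IsPGroup p O := hR.2.1.to_le hOR
  have hON : O ≤ N := hOR.trans (hR.1.trans hMN)
  have hNO : N ≤ Subgroup.normalizer (O : Set X) := by
    apply ks_le_normalizer_of_conj
    intro n hn x hx
    rw [hO, Subgroup.mem_iInf] at hx ⊢
    intro n'
    have := hx (⟨n, hn⟩⁻¹ * n')
    rw [mem_cj] at this ⊢
    convert this using 1
    push_cast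
    group
  exact hPO.trans (hOT O hOp hON hNO)

theorem ks_gamma {N C B T : Subgroup X} (hCN : C ≤ N)
    (hNC : N ≤ Subgroup.normalizer (C : Set X)) (hBN : B ≤ N) (hTC : T ≤ C)
    (hL : ∀ x ∈ N, (orderOf x).Coprime p → x ∈ C)
    (hMIN : ∀ M : Subgroup X, M ≤ N → N ≤ Subgroup.normalizer (M : Set X) → B ≤ M → T ≤ M →
      M = N) :
    ∀ n ∈ N, ∃ b ∈ B, ∃ c ∈ C, n = b * c := by
  haveI hC' : (C.subgroupOf N).Normal := (Subgroup.normal_subgroupOf_iff_le_normalizer hCN).mpr hNC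
  have hπs : Function.Surjective (QuotientGroup.mk' (C.subgroupOf N)) :=
    QuotientGroup.mk'_surjective _
  have hΓ : IsPGroup p (↥N ⧸ C.subgroupOf N) := by
    intro γ
    obtain ⟨g, rfl⟩ := hπs γ
    have hpos : 0 < orderOf (g : X) := orderOf_pos _
    obtain ⟨k, m, hm, hkm⟩ :=
      Nat.exists_eq_pow_mul_and_not_dvd hpos.ne' p (Fact.out : p.Prime).ne_one
    refine ⟨k, ?_⟩
    rw [← map_pow, QuotientGroup.mk'_apply, QuotientGroup.eq_one_iff, Subgroup.mem_subgroupOf]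
    push_cast
    apply hL _ (N.pow_mem g.2 _)
    have hdvd : orderOf ((g : X) ^ (p ^ k)) ∣ m := by
      apply orderOf_dvd_of_pow_eq_one
      rw [← pow_mul, ← hkm, pow_orderOf_eq_one]
    have hcop : Nat.Coprime m p :=
      (Nat.Coprime.symm ((Nat.Prime.coprime_iff_not_dvd (Fact.out : p.Prime)).mpr hm))
    exact Nat.Coprime.coprime_dvd_left hdvd hcop
  by_cases hYtop : (B.subgroupOf N).map (QuotientGroup.mk' (C.subgroupOf N)) = ⊤
  · intro n hn
    have hmem : QuotientGroup.mk' (C.subgroupOf N) ⟨n, hn⟩ ∈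
        (B.subgroupOf N).map (QuotientGroup.mk' (C.subgroupOf N)) := by rw [hYtop]; trivial
    obtain ⟨b, hb, hbe⟩ := hmem
    have h1 : b⁻¹ * ⟨n, hn⟩ ∈ C.subgroupOf N := QuotientGroup.eq.mp hbe
    refine ⟨b, Subgroup.mem_subgroupOf.mp hb, (b : X)⁻¹ * n, ?_, by group⟩
    simpa [Subgroup.mem_subgroupOf] using h1
  · exfalso
    obtain ⟨Mb, hMb, hYM⟩ := (eq_top_or_exists_le_coatom _).resolve_left hYtop
    haveI hnil : Group.IsNilpotent (↥N ⧸ C.subgroupOf N) := hΓ.isNilpotent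
    have hMbn : Mb.Normal :=
      Subgroup.NormalizerCondition.normal_of_coatom Mb Group.normalizerCondition_of_isNilpotent hMb
    haveI : (Mb.comap (QuotientGroup.mk' (C.subgroupOf N))).Normal := hMbn.comap _
    have hMN : (Mb.comap (QuotientGroup.mk' (C.subgroupOf N))).map N.subtype ≤ N :=
      Subgroup.map_subtype_le _
    have hNM := ks_le_normalizer_map_subtype (Mb.comap (QuotientGroup.mk' (C.subgroupOf N)))
    have hBM : B ≤ (Mb.comap (QuotientGroup.mk' (C.subgroupOf N))).map N.subtype := by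
      intro b hb
      refine ⟨⟨b, hBN hb⟩, ?_, rfl⟩
      show QuotientGroup.mk' (C.subgroupOf N) ⟨b, hBN hb⟩ ∈ Mb
      exact hYM ⟨⟨b, hBN hb⟩, Subgroup.mem_subgroupOf.mpr hb, rfl⟩
    have hTM : T ≤ (Mb.comap (QuotientGroup.mk' (C.subgroupOf N))).map N.subtype := by
      intro t ht
      have htN : t ∈ N := hCN (hTC ht)
      refine ⟨⟨t, htN⟩, ?_, rfl⟩
      show QuotientGroup.mk' (C.subgroupOf N) ⟨t, htN⟩ ∈ Mb
      have : QuotientGroup.mk' (C.subgroupOf N) ⟨t, htN⟩ = 1 := by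
        rw [QuotientGroup.mk'_apply, QuotientGroup.eq_one_iff, Subgroup.mem_subgroupOf]
        exact hTC ht
      rw [this]; exact Mb.one_mem
    have hMeq := hMIN _ hMN hNM hBM hTM
    apply hMb.1
    rw [eq_top_iff]
    intro γ _
    obtain ⟨g, rfl⟩ := hπs γ
    have hg : (g : X) ∈ (Mb.comap (QuotientGroup.mk' (C.subgroupOf N))).map N.subtype := by
      rw [hMeq]; exact g.2
    obtain ⟨g', hg', hgg⟩ := hg
    have : g' = g := Subtype.ext hgg
    rw [← this]; exact hg'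

end ks

end Cfsg.Agent.Lib.Helper15
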