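import Cfsg.Agent.Lib.Helper15.KStab2

set_option autoImplicit false
open scoped commutatorElement

namespace Cfsg.Agent.Lib.Helper15

open Cfsg.Agent.Lib.Helper42

universe u

section ks3

variable {X : Type u} [Group X] [Finite X] {p : ℕ} [Fact p.Prime]

/-- `p`-stability (normalizer form) of all sections gives the internal form -/
theorem psInt_of_sections
    (hst : ∀ (K R : Subgroup X) [hR : (R.subgroupOf K).Normal],
      Cfsg.IsNormalizerPStable p (↥K ⧸ R.subgroupOf K)) : PSInt p X := by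
  intro N U₁ U₂ hU hU₁N hU₁ hN₁ hN₂
  haveI hR : (U₂.subgroupOf N).Normal :=
    (Subgroup.normal_subgroupOf_iff_le_normalizer (hU.trans hU₁N)).mpr hN₂
  haveI hU₁n : (U₁.subgroupOf N).Normal :=
    (Subgroup.normal_subgroupOf_iff_le_normalizer hU₁N).mpr hN₁
  have hst' := hst N U₂
  have hπs : Function.Surjective (QuotientGroup.mk' (U₂.subgroupOf N)) :=
    QuotientGroup.mk'_surjective _
  obtain ⟨Pb, hPb⟩ : ∃ Pb : Subgroup (↥N ⧸ U₂.subgroupOf N),
      Pb = (U₁.subgroupOf N).map (QuotientGroup.mk' (U₂.subgroupOf N)) := ⟨_, rfl⟩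
  haveI hPbn : Pb.Normal := by rw [hPb]; exact Subgroup.Normal.map hU₁n _ hπs
  have hPbp : IsPGroup p Pb := by
    rw [hPb]; exact (hU₁.comap_subtype).map _
  have hNtop : Subgroup.normalizer (Pb : Set (↥N ⧸ U₂.subgroupOf N)) = ⊤ :=
    Subgroup.normalizer_eq_top Pb
  have hmemN : ∀ n : ↥N, QuotientGroup.mk' (U₂.subgroupOf N) n ∈
      Subgroup.normalizer (Pb : Set (↥N ⧸ U₂.subgroupOf N)) := fun n => by
    rw [hNtop]; trivial
  obtain ⟨φ, hφ⟩ : ∃ φ : ↥N →* ↥(Subgroup.normalizer (Pb : Set (↥N ⧸ U₂.subgroupOf N))) ⧸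
      (Subgroup.centralizer (Pb : Set (↥N ⧸ U₂.subgroupOf N))).subgroupOf
        (Subgroup.normalizer (Pb : Set (↥N ⧸ U₂.subgroupOf N))),
      ∀ n : ↥N, φ n = QuotientGroup.mk
        (⟨QuotientGroup.mk' (U₂.subgroupOf N) n, hmemN n⟩ :
          ↥(Subgroup.normalizer (Pb : Set (↥N ⧸ U₂.subgroupOf N)))) :=
    ⟨(QuotientGroup.mk' _).comp ((QuotientGroup.mk' (U₂.subgroupOf N)).codRestrict _ hmemN),
      fun n => rfl⟩
  have hφs : Function.Surjective φ := by
    intro q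
    obtain ⟨⟨y, hy⟩, rfl⟩ := QuotientGroup.mk_surjective q
    obtain ⟨n, rfl⟩ := hπs y
    exact ⟨n, hφ n⟩
  -- kernel description: φ n = 1 ↔ n centralizes U₁ modulo U₂
  have hker : ∀ n : ↥N, φ n = 1 → ∀ u ∈ U₁, ⁅u, (n : X)⁆ ∈ U₂ := by
    intro n hn u hu
    rw [hφ n, QuotientGroup.eq_one_iff, Subgroup.mem_subgroupOf] at hn
    have hn' : QuotientGroup.mk' (U₂.subgroupOf N) n ∈
        Subgroup.centralizer (Pb : Set (↥N ⧸ U₂.subgroupOf N)) := hn
    rw [Subgroup.mem_centralizer_iff] at hn'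
    have hub : QuotientGroup.mk' (U₂.subgroupOf N) ⟨u, hU₁N hu⟩ ∈ Pb := by
      rw [hPb]; exact ⟨⟨u, hU₁N hu⟩, Subgroup.mem_subgroupOf.mpr hu, rfl⟩
    have h1 := hn' _ hub
    have h2 : QuotientGroup.mk' (U₂.subgroupOf N) (⁅(⟨u, hU₁N hu⟩ : ↥N), n⁆) = 1 := by
      rw [map_commutatorElement, commutatorElement_eq_one_iff_mul_comm]
      exact h1
    rw [QuotientGroup.mk'_apply, QuotientGroup.eq_one_iff, Subgroup.mem_subgroupOf] at h2
    have h3 : ((⁅(⟨u, hU₁N hu⟩ : ↥N), n⁆ : ↥N) : X) = ⁅u, (n : X)⁆ := by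
      simp [commutatorElement_def]
    rwa [h3] at h2
  obtain ⟨O, hO⟩ : ∃ O : Subgroup (↥(Subgroup.normalizer (Pb : Set (↥N ⧸ U₂.subgroupOf N))) ⧸
      (Subgroup.centralizer (Pb : Set (↥N ⧸ U₂.subgroupOf N))).subgroupOf
        (Subgroup.normalizer (Pb : Set (↥N ⧸ U₂.subgroupOf N)))),
      O = Cfsg.pCore p _ := ⟨_, rfl⟩
  have hOn : O.Normal := by rw [hO]; exact pCore_normal p _
  have hOp : IsPGroup p O := by rw [hO]; exact isPGroup_pCore p _
  haveI : (O.comap φ).Normal := hOn.comap φ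
  refine ⟨(O.comap φ).map N.subtype, Subgroup.map_subtype_le _,
    ks_le_normalizer_map_subtype _, ?_, ?_, ?_⟩
  · -- normal p-subgroups of N
    intro P hP hPN hNP x hx
    refine ⟨⟨x, hPN hx⟩, ?_, rfl⟩
    show φ ⟨x, hPN hx⟩ ∈ O
    haveI hPn : (P.subgroupOf N).Normal :=
      (Subgroup.normal_subgroupOf_iff_le_normalizer hPN).mpr hNP
    have h1 : ((P.subgroupOf N).map φ).Normal := Subgroup.Normal.map hPn φ hφs
    have h2 : IsPGroup p ((P.subgroupOf N).map φ) := (hP.comap_subtype).map φ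
    have h3 : (P.subgroupOf N).map φ ≤ O := by rw [hO]; exact le_pCore h1 h2
    exact h3 ⟨⟨x, hPN hx⟩, Subgroup.mem_subgroupOf.mpr hx, rfl⟩
  · -- p'-elements of D
    rintro _ ⟨y, hy, rfl⟩ hcop
    have hy' : φ y ∈ O := hy
    have h1 : φ y = 1 := by
      obtain ⟨j, hj⟩ := IsPGroup.iff_orderOf.mp hOp ⟨φ y, hy'⟩
      rw [Subgroup.orderOf_mk] at hj
      have hdvd : orderOf (φ y) ∣ orderOf (y : X) := by
        rw [Subgroup.orderOf_coe]; exact orderOf_map_dvd φ y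
      have hc : Nat.Coprime (orderOf (φ y)) (orderOf (y : X)) := by
        rw [hj]; exact Nat.Coprime.pow_left j hcop.symm
      exact orderOf_eq_one_iff.mp (Nat.Coprime.eq_one_of_dvd hc hdvd)
    rw [Subgroup.commutator_le]
    intro u hu z hz
    obtain ⟨k, rfl⟩ := Subgroup.mem_zpowers_iff.mp hz
    have h2 : φ (y ^ k) = 1 := by rw [map_zpow, h1, one_zpow]
    have := hker (y ^ k) h2 u hu
    simpa using this
  · -- quadratic elements
    intro g hg hq
    refine ⟨⟨g, hg⟩, ?_, rfl⟩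
    show φ ⟨g, hg⟩ ∈ O
    rw [hφ, hO]
    apply hst' Pb hPbp
    -- the quadratic condition in the quotient
    have e1 : Subgroup.zpowers (QuotientGroup.mk' (U₂.subgroupOf N) ⟨g, hg⟩) =
        (Subgroup.zpowers (⟨g, hg⟩ : ↥N)).map (QuotientGroup.mk' (U₂.subgroupOf N)) := by
      rw [MonoidHom.map_zpowers]
    rw [e1, hPb, ← Subgroup.map_commutator, ← Subgroup.map_commutator, Subgroup.map_eq_bot_iff,
      QuotientGroup.ker_mk']
    have e2 : (⁅⁅U₁.subgroupOf N, Subgroup.zpowers (⟨g, hg⟩ : ↥N)⁆,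
        Subgroup.zpowers (⟨g, hg⟩ : ↥N)⁆).map N.subtype =
        ⁅⁅U₁, Subgroup.zpowers g⁆, Subgroup.zpowers g⁆ := by
      rw [Subgroup.map_commutator, Subgroup.map_commutator,
        Subgroup.map_subgroupOf_eq_of_le hU₁N, MonoidHom.map_zpowers]
      rfl
    intro x hx
    rw [Subgroup.mem_subgroupOf]
    apply hq
    rw [← e2]
    exact ⟨x, hx, rfl⟩

end ks3

end Cfsg.Agent.Lib.Helper15
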