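import Cfsg.Agent.Lib.Helper15.KStab4
import Cfsg.Agent.Lib.Helper2.QdStable
import Cfsg.Agent.Lib.Helper2.NPC

set_option autoImplicit false
open scoped commutatorElement

namespace Cfsg.Agent.Lib.Helper15

open Cfsg.Agent.Lib.Helper42

universe u

section ks5

variable {G : Type u} [Group G] [Finite G] {p : ℕ} [Fact p.Prime]

/-- in a `Qd(p)`-free group (`p` odd) every section is `p`-stable in the normalizer form -/
theorem sections_stable_of_qd_free (hp : p ≠ 2) (hfree : ¬ Cfsg.Involves ↥(Cfsg.qd p) G) :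
    ∀ (K R : Subgroup G) [hR : (R.subgroupOf K).Normal],
      Cfsg.IsNormalizerPStable p (↥K ⧸ R.subgroupOf K) := by
  intro K R hR
  apply Cfsg.Agent.Lib.Helper2.isNormalizerPStable_of_qd_free hp
  intro hinv
  exact hfree (Cfsg.Agent.Lib.Helper2.involves_of_subgroup K
    (Cfsg.Agent.Lib.Helper2.involves_of_quotient _ hinv))

/-- Glauberman: in a `Qd(p)`-free group (`p` odd) the `K`-infinity functors control strong
fusion in every section -/
theorem kinf_ctl_of_qd_free (hp : p ≠ 2) (hfree : ¬ Cfsg.Involves ↥(Cfsg.qd p) G) :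
    (∀ (Z : Type u) [Group Z] [Finite Z], IsSec Z G →
      Ctl p ({Cfsg.kInfLower} : Set (∀ (Q : Type u) [Group Q], Subgroup Q)) Z) ∧
    (∀ (Z : Type u) [Group Z] [Finite Z], IsSec Z G →
      Ctl p ({Cfsg.kInfUpper} : Set (∀ (Q : Type u) [Group Q], Subgroup Q)) Z) := by
  have hL : ∀ W' ∈ ({Cfsg.kInfLower} : Set (∀ (Q : Type u) [Group Q], Subgroup Q)),
      Cfsg.IsCharPFunctor.{u} p W' := by
    rintro W' rfl; exact isCharPFunctor_kInfLower p
  have hU : ∀ W' ∈ ({Cfsg.kInfUpper} : Set (∀ (Q : Type u) [Group Q], Subgroup Q)),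
      Cfsg.IsCharPFunctor.{u} p W' := by
    rintro W' rfl; exact isCharPFunctor_kInfUpper p
  have hloc : ∀ (K R : Subgroup G) [hR : (R.subgroupOf K).Normal],
      Subgroup.centralizer ((Cfsg.pCore p (↥K ⧸ R.subgroupOf K) :
        Subgroup (↥K ⧸ R.subgroupOf K)) : Set (↥K ⧸ R.subgroupOf K)) ≤
        Cfsg.pCore p (↥K ⧸ R.subgroupOf K) →
      ∀ T : Sylow p (↥K ⧸ R.subgroupOf K),
        (Cfsg.inducedFunctor Cfsg.kInfLower (T : Subgroup (↥K ⧸ R.subgroupOf K))).Normal ∧
        (Cfsg.inducedFunctor Cfsg.kInfUpper (T : Subgroup (↥K ⧸ R.subgroupOf K))).Normal := by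
    intro K R hR hc T
    have hfree' : ¬ Cfsg.Involves ↥(Cfsg.qd p) (↥K ⧸ R.subgroupOf K) := fun hinv =>
      hfree (Cfsg.Agent.Lib.Helper2.involves_of_subgroup K
        (Cfsg.Agent.Lib.Helper2.involves_of_quotient _ hinv))
    exact kinf_normal_of_sections (sections_stable_of_qd_free hp hfree') hc T
  constructor
  · exact ctl_of_sections hL (G := G) (fun K R hR hc => by
      obtain ⟨T⟩ : Nonempty (Sylow p (↥K ⧸ R.subgroupOf K)) := inferInstance
      exact ctl_single_of_normal T (hloc K R hc T).1)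
  · exact ctl_of_sections hU (G := G) (fun K R hR hc => by
      obtain ⟨T⟩ : Nonempty (Sylow p (↥K ⧸ R.subgroupOf K)) := inferInstance
      exact ctl_single_of_normal T (hloc K R hc T).2)

/-- the `K`-infinity subgroups of a Sylow `p`-subgroup control strong fusion in a `Qd(p)`-free
group, `p` odd -/
theorem kinf_controls_of_qd_free (hp : p ≠ 2) (hfree : ¬ Cfsg.Involves ↥(Cfsg.qd p) G)
    (S : Sylow p G) :
    Cfsg.ControlsStrongFusion p (Cfsg.inducedFunctor Cfsg.kInfLower (S : Subgroup G)) ∧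
      Cfsg.ControlsStrongFusion p (Cfsg.inducedFunctor Cfsg.kInfUpper (S : Subgroup G)) := by
  obtain ⟨h1, h2⟩ := kinf_ctl_of_qd_free hp hfree
  exact ⟨controlsStrongFusion_of_ctl (isCharPFunctor_kInfLower p) (h1 G (IsSec.refl G)) S,
    controlsStrongFusion_of_ctl (isCharPFunctor_kInfUpper p) (h2 G (IsSec.refl G)) S⟩

end ks5

end Cfsg.Agent.Lib.Helper15
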