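import Cfsg.Agent.Lib.Helper15.KStab5
import Cfsg.Agent.Lib.Helper2.QdFus

/-!
# A characteristic `p`-functor never controls strong fusion in `Qd(p)`
-/

set_option autoImplicit false

namespace Cfsg.Agent.Lib.Helper15

open Cfsg Cfsg.Agent.Lib.Helper54 Cfsg.Agent.Lib.Helper42

universe u v

/-- invariance of the lower `K`-infinity subgroup under isomorphisms across universes -/
theorem map_kInfLower_uv {Q : Type u} {R : Type v} [Group Q] [Group R] (φ : Q ≃* R) :
    (Cfsg.kInfLower Q).map φ.toMonoidHom = Cfsg.kInfLower R := by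
  show Subgroup.map φ.toMonoidHom (⨆ n, Cfsg.kSeqEven Q n) = ⨆ n, Cfsg.kSeqEven R n
  rw [Subgroup.map_iSup]
  exact iSup_congr (fun n => jm_kSeqEven φ n)

theorem ind_kInfLower_map_aux {X : Type u} {Y : Type v} [Group X] [Group Y] (f : X →* Y)
    (T : Subgroup X) (T' : Subgroup Y) (e' : ↥T ≃* ↥T') (hcomm : ∀ t : ↥T, f (t : X) = (e' t : Y)) :
    (Cfsg.inducedFunctor Cfsg.kInfLower T).map f = Cfsg.inducedFunctor Cfsg.kInfLower T' := by
  unfold Cfsg.inducedFunctor
  rw [← map_kInfLower_uv e', Subgroup.map_map, Subgroup.map_map]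
  congr 1
  ext t
  exact hcomm t

/-- the induced lower `K`-infinity functor commutes with isomorphisms across universes -/
theorem ind_kInfLower_map_equiv {X : Type u} {Y : Type v} [Group X] [Group Y] (e : X ≃* Y)
    (T : Subgroup X) :
    (Cfsg.inducedFunctor Cfsg.kInfLower T).map e.toMonoidHom =
      Cfsg.inducedFunctor Cfsg.kInfLower (T.map e.toMonoidHom) :=
  ind_kInfLower_map_aux e.toMonoidHom T (T.map e.toMonoidHom) (e.subgroupMap T) (fun _ => rfl)

section aff

variable {p : ℕ} [Fact p.Prime]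

/-- In `Qd(p)` (as the affine group), no characteristic `p`-functor controls strong fusion. -/
theorem not_controls_affSub_char {W : ∀ (Q : Type) [Group Q], Subgroup Q}
    (hW : Cfsg.IsCharPFunctor.{0} p W) (S : Sylow p ↥(affSub (ZMod p))) :
    ¬ ControlsStrongFusion p
      (Cfsg.inducedFunctor W (S : Subgroup ↥(affSub (ZMod p)))) := by
  have hcast : ∀ x : ZMod p, ∃ n : ℕ, (n : ZMod p) = x := fun x => ⟨x.val, ZMod.natCast_zmod_val x⟩
  have hVS : ∀ S' : Sylow p ↥(affSub (ZMod p)), transSub (ZMod p) ≤ (S' : Subgroup _) := by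
    intro S'
    rw [← pCore_affSub (p := p) (F := ZMod p)]
    exact Cfsg.Agent.Lib.Helper14.pCore_le_sylow S'
  have hSnt : Nontrivial ↥(S : Subgroup ↥(affSub (ZMod p))) := by
    refine ⟨⟨⟨tv 1 0, hVS S (tv_mem 1 0)⟩, 1, ?_⟩⟩
    intro h
    have h1 : tv (1 : ZMod p) 0 = 1 := congrArg Subtype.val h
    rw [← tv_zero] at h1
    exact one_ne_zero (tv_injective h1).1
  have hne : W ↥(S : Subgroup ↥(affSub (ZMod p))) ≠ ⊥ :=
    hW.1 _ S.isPGroup' hSnt
  have hchar : (W ↥(S : Subgroup ↥(affSub (ZMod p)))).Characteristic := by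
    rw [Subgroup.characteristic_iff_map_eq]
    intro φ
    exact hW.2 _ _ S.isPGroup' φ
  obtain ⟨hN, hNtop⟩ := sylow_char hcast S _ hne hchar
  unfold inducedFunctor
  rintro ⟨T', hUT', hctl⟩
  apply hNtop
  rw [eq_top_iff]
  intro g _
  have hV : ((transSub (ZMod p) : Subgroup ↥(affSub (ZMod p))) : Set ↥(affSub (ZMod p))) ⊆
      ((T' : Subgroup ↥(affSub (ZMod p))) : Set ↥(affSub (ZMod p))) := hVS T'
  obtain ⟨-, hc⟩ := hctl _ hV
  have hg : (fun a => g * a * g⁻¹) '' ((transSub (ZMod p) : Subgroup ↥(affSub (ZMod p))) :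
      Set ↥(affSub (ZMod p))) ⊆ ((T' : Subgroup ↥(affSub (ZMod p))) : Set ↥(affSub (ZMod p))) := by
    rintro _ ⟨a, ha, rfl⟩
    exact hVS T' (transSub_normal.conj_mem a ha g)
  obtain ⟨x, hx, hxa⟩ := hc g hg
  rw [hN] at hx
  have hcen : x⁻¹ * g ∈ Subgroup.centralizer
      ((transSub (ZMod p) : Subgroup ↥(affSub (ZMod p))) : Set ↥(affSub (ZMod p))) := by
    rw [Subgroup.mem_centralizer_iff]
    intro a ha
    have h1 := hxa a ha
    have h2 : x⁻¹ * g * a * (x⁻¹ * g)⁻¹ = a := by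
      have : x⁻¹ * g * a * (x⁻¹ * g)⁻¹ = x⁻¹ * (g * a * g⁻¹) * x := by group
      rw [this, h1]; group
    calc a * (x⁻¹ * g) = (x⁻¹ * g * a * (x⁻¹ * g)⁻¹) * (x⁻¹ * g) := by rw [h2]
      _ = x⁻¹ * g * a := by group
  have h3 : x⁻¹ * g ∈ Subgroup.normalizer ((S : Subgroup ↥(affSub (ZMod p))) : Set _) :=
    Subgroup.le_normalizer (hVS S (centralizer_transSub_le hcen))
  have h4 := Subgroup.mul_mem _ hx h3
  rwa [mul_inv_cancel_left] at h4

theorem not_controls_char_of_eq {W : ∀ (Q : Type) [Group Q], Subgroup Q}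
    (hW : Cfsg.IsCharPFunctor.{0} p W)
    (Q : Subgroup (Matrix.SpecialLinearGroup (Fin 3) (ZMod p)))
    (hQ : Q = affSub (ZMod p)) (S : Sylow p ↥Q) :
    ¬ ControlsStrongFusion p (Cfsg.inducedFunctor W (S : Subgroup ↥Q)) := by
  subst hQ
  exact not_controls_affSub_char hW S

/-- In any group isomorphic to `Qd(p)`, the lower `K`-infinity subgroup of a Sylow `p`-subgroup
does not control strong fusion. -/
theorem not_controls_kInfLower_of_equiv_qd {X : Type u} [Group X] [Finite X] (e : X ≃* ↥(qd p))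
    (T : Sylow p X) :
    ¬ ControlsStrongFusion p (Cfsg.inducedFunctor Cfsg.kInfLower (T : Subgroup X)) := by
  intro h
  have h1 := Cfsg.Agent.Lib.Helper2.controlsStrongFusion_map_equiv e _ h
  rw [ind_kInfLower_map_equiv] at h1
  have hsurj : Function.Surjective e.toMonoidHom := e.surjective
  have h2 := not_controls_char_of_eq (isCharPFunctor_kInfLower p) (qd p) (qd_eq p)
    (T.mapSurjective hsurj)
  rw [Sylow.coe_mapSurjective] at h2
  exact h2 h1

end aff

end Cfsg.Agent.Lib.Helper15
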