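import Cfsg.Agent.Lib.Helper96.PiDefs
import Cfsg.Agent.Lib.Helper96.PiGlueB
import Cfsg.Agent.Lib.Helper96.PiOmega
import Cfsg.Agent.Lib.Helper9.HeUNIPPOW

/-!
Project PI (S5989, helper96), piece CONC (helper15): a unipotent isometry of `quadFormPlus d F`
(`d` odd, `d ≥ 3`) of Jordan type `(3,3,2^(d-3))`.

Model: index set `Fin 3 ⊕ (Fin e ⊕ Fin e)` (`d = 3 + (e + e)`); on the `Fin 3` block the map is
`(u, y) ↦ (J u, J⁻ᵀ y)` for a unipotent Jordan block `J`, on the `Fin e ⊕ Fin e` block it is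
`(u_a, u_b, y_a, y_b) ↦ (u_a + y_b, u_b - y_a, y_a, y_b)`.
-/

set_option autoImplicit false
set_option linter.unusedSectionVars false
set_option linter.unusedVariables false
set_option linter.unusedSimpArgs false
set_option linter.unreachableTactic false
set_option linter.unusedTactic false

namespace Cfsg.Agent.Lib.Helper15.Pi

open Module Cfsg.Agent.Lib.Helper96.Sp Cfsg.Agent.Lib.Helper96.BG Cfsg.Agent.Lib.Helper96.Hy
  Cfsg.Agent.Lib.Helper96.Pi Cfsg.Agent.Lib.Helper47

universe u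

section Concrete

open Matrix
open scoped MatrixGroups

variable {F : Type u} [Field F] [Fintype F]

/-- transport of a model endomorphism along a bijection of the index sets -/
theorem conc_transport {I : Type} [Fintype I] [DecidableEq I] (d : ℕ) (ε : I ≃ Fin d)
    (f' g' : Module.End F (I ⊕ I → F))
    (hfg : f' * g' = 1) (hgf : g' * f' = 1)
    (h1 : ∀ w : I ⊕ I → F,
      ∑ i : I, f' w (.inl i) * f' w (.inr i) = ∑ i : I, w (.inl i) * w (.inr i))
    (h2 : ∀ z : F, ∃ w : I ⊕ I → F, f' w ≠ z • w)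
    (h3 : (f' - 1) ^ 3 = 0)
    (h4 : LinearMap.ker (f' - 1) ≤ LinearMap.range (f' - 1))
    (h5 : finrank F (LinearMap.range ((f' - 1) * (f' - 1))) ≤ 2) :
    ∃ x : GL (Fin d ⊕ Fin d) F,
      (∀ v, Cfsg.quadFormPlus d F ((x : Matrix (Fin d ⊕ Fin d) (Fin d ⊕ Fin d) F) *ᵥ v)
        = Cfsg.quadFormPlus d F v) ∧
      (∀ z : F, (x : Matrix (Fin d ⊕ Fin d) (Fin d ⊕ Fin d) F)
        ≠ z • (1 : Matrix (Fin d ⊕ Fin d) (Fin d ⊕ Fin d) F)) ∧
      (Matrix.toLin' (x : Matrix (Fin d ⊕ Fin d) (Fin d ⊕ Fin d) F) - 1) ^ 3 = 0 ∧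
      LinearMap.ker (Matrix.toLin' (x : Matrix (Fin d ⊕ Fin d) (Fin d ⊕ Fin d) F) - 1)
        ≤ LinearMap.range (Matrix.toLin' (x : Matrix (Fin d ⊕ Fin d) (Fin d ⊕ Fin d) F) - 1) ∧
      finrank F (LinearMap.range
        ((Matrix.toLin' (x : Matrix (Fin d ⊕ Fin d) (Fin d ⊕ Fin d) F) - 1)
          * (Matrix.toLin' (x : Matrix (Fin d ⊕ Fin d) (Fin d ⊕ Fin d) F) - 1))) ≤ 2 := by
  classical
  let Ψ : (I ⊕ I → F) ≃ₗ[F] (Fin d ⊕ Fin d → F) :=
    LinearEquiv.funCongrLeft F F (Equiv.sumCongr ε ε).symm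
  let C : Module.End F (I ⊕ I → F) ≃+* Module.End F (Fin d ⊕ Fin d → F) := Ψ.conjRingEquiv
  have hΨl : ∀ (w : I ⊕ I → F) (i : Fin d), Ψ w (.inl i) = w (.inl (ε.symm i)) :=
    fun w i => rfl
  have hΨr : ∀ (w : I ⊕ I → F) (i : Fin d), Ψ w (.inr i) = w (.inr (ε.symm i)) :=
    fun w i => rfl
  have hΨsl : ∀ (v : Fin d ⊕ Fin d → F) (k : I), Ψ.symm v (.inl k) = v (.inl (ε k)) :=
    fun v k => rfl
  have hΨsr : ∀ (v : Fin d ⊕ Fin d → F) (k : I), Ψ.symm v (.inr k) = v (.inr (ε k)) :=
    fun v k => rfl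
  have hCap : ∀ (φ : Module.End F (I ⊕ I → F)) (v : Fin d ⊕ Fin d → F),
      C φ v = Ψ (φ (Ψ.symm v)) := fun φ v => rfl
  have hmul1 : C f' * C g' = 1 := by rw [← map_mul, hfg, map_one]
  have hmul2 : C g' * C f' = 1 := by rw [← map_mul, hgf, map_one]
  let x : GL (Fin d ⊕ Fin d) F :=
    ⟨LinearMap.toMatrix' (C f'), LinearMap.toMatrix' (C g'),
      by rw [← LinearMap.toMatrix'_mul, hmul1, LinearMap.toMatrix'_one],
      by rw [← LinearMap.toMatrix'_mul, hmul2, LinearMap.toMatrix'_one]⟩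
  have hx : Matrix.toLin' (x : Matrix (Fin d ⊕ Fin d) (Fin d ⊕ Fin d) F) = C f' :=
    Matrix.toLin'_toMatrix' _
  have hsub : C f' - 1 = C (f' - 1) := by rw [map_sub, map_one]
  refine ⟨x, ?_, ?_, ?_, ?_, ?_⟩
  · intro v
    have hxv : (x : Matrix (Fin d ⊕ Fin d) (Fin d ⊕ Fin d) F) *ᵥ v = C f' v := by
      rw [← Matrix.toLin'_apply, hx]
    rw [hxv]
    unfold Cfsg.quadFormPlus
    simp only [hCap, hΨl, hΨr]
    rw [Equiv.sum_comp ε.symm (fun k => f' (Ψ.symm v) (.inl k) * f' (Ψ.symm v) (.inr k)), h1]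
    simp only [hΨsl, hΨsr]
    exact Equiv.sum_comp ε (fun i => v (.inl i) * v (.inr i))
  · intro z hz
    obtain ⟨w, hw⟩ := h2 z
    apply hw
    have h6 : C f' = z • (1 : Module.End F (Fin d ⊕ Fin d → F)) := by
      rw [← hx, hz, map_smul, Matrix.toLin'_one]
      rfl
    have h7 := LinearMap.congr_fun h6 (Ψ w)
    rw [hCap, LinearEquiv.symm_apply_apply] at h7
    apply Ψ.injective
    rw [h7, map_smul]
    rfl
  · rw [hx, hsub, ← map_pow, h3, map_zero]
  · rw [hx, hsub]
    intro v hv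
    rw [LinearMap.mem_ker, hCap] at hv
    have h8 : Ψ.symm v ∈ LinearMap.ker (f' - 1) := by
      rw [LinearMap.mem_ker]
      apply Ψ.injective
      rw [hv, map_zero]
    obtain ⟨w, hw⟩ := h4 h8
    refine ⟨Ψ w, ?_⟩
    rw [hCap, LinearEquiv.symm_apply_apply, hw, LinearEquiv.apply_symm_apply]
  · rw [hx, hsub, ← map_mul]
    have h9 : LinearMap.range (C ((f' - 1) * (f' - 1)))
        ≤ (LinearMap.range ((f' - 1) * (f' - 1))).map Ψ.toLinearMap := by
      rintro _ ⟨v, rfl⟩
      exact ⟨_, ⟨Ψ.symm v, rfl⟩, rfl⟩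
    exact (Submodule.finrank_mono h9).trans ((Submodule.finrank_map_le _ _).trans h5)

/-- the index set of the model -/
abbrev CI (e : ℕ) : Type := Fin 3 ⊕ (Fin e ⊕ Fin e)

/-- the model map -/
def concF (e : ℕ) (w : CI e ⊕ CI e → F) : CI e ⊕ CI e → F
  | .inl (.inl i) => ![w (.inl (.inl 0)) + w (.inl (.inl 1)),
      w (.inl (.inl 1)) + w (.inl (.inl 2)), w (.inl (.inl 2))] i
  | .inl (.inr (.inl a)) => w (.inl (.inr (.inl a))) + w (.inr (.inr (.inr a)))
  | .inl (.inr (.inr b)) => w (.inl (.inr (.inr b))) - w (.inr (.inr (.inl b)))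
  | .inr (.inl i) => ![w (.inr (.inl 0)), w (.inr (.inl 1)) - w (.inr (.inl 0)),
      w (.inr (.inl 2)) - w (.inr (.inl 1)) + w (.inr (.inl 0))] i
  | .inr (.inr c) => w (.inr (.inr c))

/-- the inverse of the model map -/
def concG (e : ℕ) (w : CI e ⊕ CI e → F) : CI e ⊕ CI e → F
  | .inl (.inl i) => ![w (.inl (.inl 0)) - w (.inl (.inl 1)) + w (.inl (.inl 2)),
      w (.inl (.inl 1)) - w (.inl (.inl 2)), w (.inl (.inl 2))] i
  | .inl (.inr (.inl a)) => w (.inl (.inr (.inl a))) - w (.inr (.inr (.inr a)))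
  | .inl (.inr (.inr b)) => w (.inl (.inr (.inr b))) + w (.inr (.inr (.inl b)))
  | .inr (.inl i) => ![w (.inr (.inl 0)), w (.inr (.inl 0)) + w (.inr (.inl 1)),
      w (.inr (.inl 1)) + w (.inr (.inl 2))] i
  | .inr (.inr c) => w (.inr (.inr c))

/-- the model map minus the identity -/
def concN (e : ℕ) (w : CI e ⊕ CI e → F) : CI e ⊕ CI e → F
  | .inl (.inl i) => ![w (.inl (.inl 1)), w (.inl (.inl 2)), 0] i
  | .inl (.inr (.inl a)) => w (.inr (.inr (.inr a)))
  | .inl (.inr (.inr b)) => - w (.inr (.inr (.inl b)))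
  | .inr (.inl i) => ![0, - w (.inr (.inl 0)), w (.inr (.inl 0)) - w (.inr (.inl 1))] i
  | .inr (.inr c) => 0

/-- a preimage under `concN` of a vector of its kernel -/
def concP (e : ℕ) (w : CI e ⊕ CI e → F) : CI e ⊕ CI e → F
  | .inl (.inl i) => ![0, w (.inl (.inl 0)), 0] i
  | .inl (.inr _) => 0
  | .inr (.inl i) => ![0, - w (.inr (.inl 2)), 0] i
  | .inr (.inr (.inl a)) => - w (.inl (.inr (.inr a)))
  | .inr (.inr (.inr b)) => w (.inl (.inr (.inl b)))

/-- the model map as an endomorphism -/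
def concFL (e : ℕ) : Module.End F (CI e ⊕ CI e → F) where
  toFun := concF e
  map_add' w w' := by
    funext j
    rcases j with ((i | a | b) | (i | c)) <;>
      first
        | (fin_cases i <;> simp [concF] <;> ring)
        | (simp [concF] <;> ring)
  map_smul' z w := by
    funext j
    rcases j with ((i | a | b) | (i | c)) <;>
      first
        | (fin_cases i <;> simp [concF] <;> ring)
        | (simp [concF] <;> ring)

/-- the inverse of the model map as an endomorphism -/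
def concGL (e : ℕ) : Module.End F (CI e ⊕ CI e → F) where
  toFun := concG e
  map_add' w w' := by
    funext j
    rcases j with ((i | a | b) | (i | c)) <;>
      first
        | (fin_cases i <;> simp [concG] <;> ring)
        | (simp [concG] <;> ring)
  map_smul' z w := by
    funext j
    rcases j with ((i | a | b) | (i | c)) <;>
      first
        | (fin_cases i <;> simp [concG] <;> ring)
        | (simp [concG] <;> ring)

theorem concFL_apply (e : ℕ) (w : CI e ⊕ CI e → F) : (concFL e : Module.End F _) w = concF e w :=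
  rfl

theorem concGL_apply (e : ℕ) (w : CI e ⊕ CI e → F) : (concGL e : Module.End F _) w = concG e w :=
  rfl

theorem concFG (e : ℕ) : (concFL e : Module.End F (CI e ⊕ CI e → F)) * concGL e = 1 := by
  apply LinearMap.ext
  intro w
  rw [Module.End.mul_apply, concFL_apply, concGL_apply, Module.End.one_apply]
  funext j
  rcases j with ((i | a | b) | (i | c)) <;>
    first
      | (fin_cases i <;> simp [concF, concG] <;> ring)
      | (simp [concF, concG] <;> ring)

theorem concGF (e : ℕ) : (concGL e : Module.End F (CI e ⊕ CI e → F)) * concFL e = 1 := by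
  apply LinearMap.ext
  intro w
  rw [Module.End.mul_apply, concFL_apply, concGL_apply, Module.End.one_apply]
  funext j
  rcases j with ((i | a | b) | (i | c)) <;>
    first
      | (fin_cases i <;> simp [concF, concG] <;> ring)
      | (simp [concF, concG] <;> ring)

theorem concN_eq (e : ℕ) (w : CI e ⊕ CI e → F) :
    ((concFL e : Module.End F (CI e ⊕ CI e → F)) - 1) w = concN e w := by
  rw [LinearMap.sub_apply, concFL_apply, Module.End.one_apply]
  funext j
  rcases j with ((i | a | b) | (i | c)) <;>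
    first
      | (fin_cases i <;> simp [concF, concN] <;> ring)
      | (simp [concF, concN] <;> ring)

theorem conc_isom (e : ℕ) (w : CI e ⊕ CI e → F) :
    ∑ i : CI e, (concFL e : Module.End F _) w (.inl i) * (concFL e : Module.End F _) w (.inr i)
      = ∑ i : CI e, w (.inl i) * w (.inr i) := by
  have hi : ∑ i : Fin 3, concF e w (.inl (.inl i)) * concF e w (.inr (.inl i))
      = ∑ i : Fin 3, w (.inl (.inl i)) * w (.inr (.inl i)) := by
    simp [Fin.sum_univ_three, concF]
    ring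
  have hii : ∑ a : Fin e, concF e w (.inl (.inr (.inl a))) * concF e w (.inr (.inr (.inl a)))
        + ∑ b : Fin e, concF e w (.inl (.inr (.inr b))) * concF e w (.inr (.inr (.inr b)))
      = ∑ a : Fin e, w (.inl (.inr (.inl a))) * w (.inr (.inr (.inl a)))
        + ∑ b : Fin e, w (.inl (.inr (.inr b))) * w (.inr (.inr (.inr b))) := by
    rw [← Finset.sum_add_distrib, ← Finset.sum_add_distrib]
    apply Finset.sum_congr rfl
    intro a _
    simp [concF]
    ring
  simp only [concFL_apply, Fintype.sum_sum_type]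
  rw [hi, hii]

theorem conc_nonscalar (e : ℕ) (z : F) :
    ∃ w : CI e ⊕ CI e → F, (concFL e : Module.End F _) w ≠ z • w := by
  classical
  refine ⟨Pi.single (.inl (.inl 1)) 1, ?_⟩
  intro h
  have h1 := congrFun h (.inl (.inl 0))
  simp [concFL_apply, concF] at h1

theorem conc_cube (e : ℕ) : ((concFL e : Module.End F (CI e ⊕ CI e → F)) - 1) ^ 3 = 0 := by
  apply LinearMap.ext
  intro w
  have h1 : ((((concFL e : Module.End F (CI e ⊕ CI e → F)) - 1) ^ 3 :
      Module.End F (CI e ⊕ CI e → F))) w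
      = ((concFL e : Module.End F (CI e ⊕ CI e → F)) - 1)
        (((concFL e : Module.End F (CI e ⊕ CI e → F)) - 1)
          (((concFL e : Module.End F (CI e ⊕ CI e → F)) - 1) w)) := by
    rw [Module.End.pow_apply]
    rfl
  rw [h1, concN_eq, concN_eq, concN_eq, LinearMap.zero_apply]
  funext j
  rcases j with ((i | a | b) | (i | c)) <;>
    first
      | (fin_cases i <;> simp [concN])
      | (simp [concN])

theorem conc_ker (e : ℕ) :
    LinearMap.ker ((concFL e : Module.End F (CI e ⊕ CI e → F)) - 1)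
      ≤ LinearMap.range ((concFL e : Module.End F (CI e ⊕ CI e → F)) - 1) := by
  intro w hw
  rw [LinearMap.mem_ker, concN_eq] at hw
  have k1 : w (.inl (.inl 1)) = 0 := by
    have := congrFun hw (.inl (.inl 0)); simpa [concN] using this
  have k2 : w (.inl (.inl 2)) = 0 := by
    have := congrFun hw (.inl (.inl 1)); simpa [concN] using this
  have k3 : w (.inr (.inl 0)) = 0 := by
    have := congrFun hw (.inr (.inl 1)); simpa [concN] using this
  have k4 : w (.inr (.inl 1)) = 0 := by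
    have := congrFun hw (.inr (.inl 2)); simpa [concN, k3] using this
  have k5 : ∀ a : Fin e, w (.inr (.inr (.inl a))) = 0 := by
    intro a
    have := congrFun hw (.inl (.inr (.inr a))); simpa [concN] using this
  have k6 : ∀ b : Fin e, w (.inr (.inr (.inr b))) = 0 := by
    intro b
    have := congrFun hw (.inl (.inr (.inl b))); simpa [concN] using this
  refine ⟨concP e w, ?_⟩
  rw [concN_eq]
  funext j
  rcases j with ((i | a | b) | (i | c | c)) <;>
    first
      | (fin_cases i <;> simp [concN, concP, k1, k2, k3, k4, k5, k6])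
      | (simp [concN, concP, k1, k2, k3, k4, k5, k6])

theorem conc_rank (e : ℕ) :
    finrank F (LinearMap.range (((concFL e : Module.End F (CI e ⊕ CI e → F)) - 1)
      * ((concFL e : Module.End F (CI e ⊕ CI e → F)) - 1))) ≤ 2 := by
  classical
  have h1 : LinearMap.range (((concFL e : Module.End F (CI e ⊕ CI e → F)) - 1)
      * ((concFL e : Module.End F (CI e ⊕ CI e → F)) - 1))
      ≤ Submodule.span F
        ((({(Pi.single (.inl (.inl 0)) 1 : CI e ⊕ CI e → F),
            (Pi.single (.inr (.inl 2)) 1 : CI e ⊕ CI e → F)} :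
              Finset (CI e ⊕ CI e → F))) : Set (CI e ⊕ CI e → F)) := by
    rintro _ ⟨w, rfl⟩
    rw [Finset.coe_pair, Submodule.mem_span_pair]
    refine ⟨w (.inl (.inl 2)), w (.inr (.inl 0)), ?_⟩
    rw [Module.End.mul_apply, concN_eq, concN_eq]
    funext j
    rcases j with ((i | a | b) | (i | c)) <;>
      first
        | (fin_cases i <;> simp [concN, Pi.single_apply])
        | (simp [concN, Pi.single_apply])
  exact (Submodule.finrank_mono h1).trans
    ((finrank_span_finset_le_card _).trans Finset.card_le_two)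

-- PIECE CONC
theorem exists_unip_C (h2 : (2 : F) ≠ 0) (d : ℕ) (hd : Odd d) (hd3 : 3 ≤ d) :
    ∃ x : GL (Fin d ⊕ Fin d) F,
      (∀ v, Cfsg.quadFormPlus d F ((x : Matrix (Fin d ⊕ Fin d) (Fin d ⊕ Fin d) F) *ᵥ v)
        = Cfsg.quadFormPlus d F v) ∧
      (∀ z : F, (x : Matrix (Fin d ⊕ Fin d) (Fin d ⊕ Fin d) F)
        ≠ z • (1 : Matrix (Fin d ⊕ Fin d) (Fin d ⊕ Fin d) F)) ∧
      (Matrix.toLin' (x : Matrix (Fin d ⊕ Fin d) (Fin d ⊕ Fin d) F) - 1) ^ 3 = 0 ∧
      LinearMap.ker (Matrix.toLin' (x : Matrix (Fin d ⊕ Fin d) (Fin d ⊕ Fin d) F) - 1)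
        ≤ LinearMap.range (Matrix.toLin' (x : Matrix (Fin d ⊕ Fin d) (Fin d ⊕ Fin d) F) - 1) ∧
      finrank F (LinearMap.range
        ((Matrix.toLin' (x : Matrix (Fin d ⊕ Fin d) (Fin d ⊕ Fin d) F) - 1)
          * (Matrix.toLin' (x : Matrix (Fin d ⊕ Fin d) (Fin d ⊕ Fin d) F) - 1))) ≤ 2 := by
  obtain ⟨e, rfl⟩ : ∃ e, d = 3 + (e + e) := by
    obtain ⟨k, hk⟩ := hd
    exact ⟨k - 1, by omega⟩
  exact conc_transport (3 + (e + e))
    ((Equiv.sumCongr (Equiv.refl (Fin 3)) finSumFinEquiv).trans finSumFinEquiv)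
    (concFL e) (concGL e) (concFG e) (concGF e) (conc_isom e) (conc_nonscalar e) (conc_cube e)
    (conc_ker e) (conc_rank e)

end Concrete

end Cfsg.Agent.Lib.Helper15.Pi
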